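import Mathlib

set_option autoImplicit false

namespace Cfsg.Agent.Helper1

/-- the centralizer of a union of subgroups is the centralizer of their join -/
theorem cent_iSup_set {G : Type*} [Group G] {ι : Type*} (K : ι → Subgroup G) :
    Subgroup.centralizer (⨆ i, (K i : Set G)) =
      Subgroup.centralizer ((⨆ i, K i : Subgroup G) : Set G) := by
  apply le_antisymm
  · intro x hx
    rw [Subgroup.mem_centralizer_iff] at hx ⊢
    intro h hh
    have hle : (⨆ i, K i) ≤ Subgroup.centralizer ({x} : Set G) := by
      apply iSup_le
      intro i k hk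
      rw [Subgroup.mem_centralizer_iff]
      intro y hy
      rw [Set.mem_singleton_iff.mp hy]
      have hmem : k ∈ ⨆ i, (K i : Set G) := by
        rw [Set.iSup_eq_iUnion]
        exact Set.mem_iUnion.mpr ⟨i, hk⟩
      exact (hx k hmem).symm
    exact ((Subgroup.mem_centralizer_iff.mp (hle hh)) x (Set.mem_singleton x)).symm
  · apply Subgroup.centralizer_le
    intro k hk
    rw [Set.iSup_eq_iUnion, Set.mem_iUnion] at hk
    obtain ⟨i, hi⟩ := hk
    exact (le_iSup K i) hi

end Cfsg.Agent.Helper1
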