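import Mathlib
import Cfsg.Agent.Helper1.FFHol

set_option autoImplicit false

namespace Cfsg.Agent.Helper1

open scoped SemidirectProduct

/-- transport of the structure theorem to a normal elementary abelian subgroup `V` of `G`
acted on (non-faithfully) by a normal subgroup `J` generated by best offenders -/
theorem ff_transport {G : Type*} [Group G] [Finite G] {p : ℕ} [Fact p.Prime]
    (V : Subgroup G) [V.Normal]
    (hV : Cfsg.IsElementaryAbelian p V)
    (J : Subgroup G) [hJn : J.Normal]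
    (𝒜 : Set (Subgroup G)) (hJ : J = sSup 𝒜)
    (hbest : ∀ A ∈ 𝒜, Cfsg.IsBestOffenderOn p V A)
    (hsep : Cfsg.IsPSolvable p G)
    (hOp : ∀ D : Subgroup G, D.Normal → Subgroup.centralizer (V : Set G) ≤ D →
      (∃ k : ℕ, (Subgroup.centralizer (V : Set G)).relIndex D = p ^ k) →
      D = Subgroup.centralizer (V : Set G))
    (hJC : ¬ J ≤ Subgroup.centralizer (V : Set G)) :
    (p = 2 ∨ p = 3) ∧ ∃ E : Subgroup G, Subgroup.centralizer (V : Set G) ≤ E ∧
      E ≤ J ⊔ Subgroup.centralizer (V : Set G) ∧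
      J ⊔ Subgroup.centralizer (V : Set G) ≤ Subgroup.normalizer (E : Set G) ∧
      ∃ _hn : ((Subgroup.centralizer (V : Set G)).subgroupOf E).Normal,
        Nonempty ((↥E ⧸ (Subgroup.centralizer (V : Set G)).subgroupOf E) ≃*
          Matrix.SpecialLinearGroup (Fin 2) (ZMod p)) := by
  classical
  have hker : (holRho V).ker = Subgroup.centralizer (V : Set G) := hol_ker V
  obtain ⟨J', hJ'⟩ : ∃ J' : Subgroup (Hol V), J' = J.map (holRho V) := ⟨_, rfl⟩
  have hJ'r : J' ≤ (holRho V).range := by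
    rw [hJ']
    rintro _ ⟨j, -, rfl⟩
    exact ⟨j, rfl⟩
  have hV' := hol_elem V p hV
  have hHV' : J' ≤ Subgroup.normalizer ((holV V : Subgroup (Hol V)) : Set (Hol V)) := by
    rw [Subgroup.normalizer_eq_top]
    exact le_top
  have hf' := hol_faithful V J' hJ'r
  have hS3 : J' = ⨆ A : {A : Subgroup (Hol V) // A ≤ J' ∧
      Cfsg.IsBestOffenderOn p (holV V) A}, (A : Subgroup (Hol V)) := by
    apply le_antisymm
    · rw [hJ', Subgroup.map_le_iff_le_comap, hJ]
      apply sSup_le
      intro A hA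
      rw [← Subgroup.map_le_iff_le_comap]
      have hAJ : A.map (holRho V) ≤ (sSup 𝒜).map (holRho V) :=
        Subgroup.map_mono (le_sSup hA)
      exact le_iSup_of_le ⟨A.map (holRho V), hAJ, hol_best V p A (hbest A hA)⟩ le_rfl
    · exact iSup_le fun A => A.2.1
  have hH1 : J' ≠ ⊥ := by
    intro h
    apply hJC
    rw [← hker]
    intro j hj
    rw [MonoidHom.mem_ker]
    have h2 : holRho V j ∈ J' := by
      rw [hJ']
      exact Subgroup.mem_map_of_mem _ hj
    rw [h] at h2
    exact Subgroup.mem_bot.mp h2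
  have hJ'n : ∀ g : G, ∀ x ∈ J', holRho V g * x * (holRho V g)⁻¹ ∈ J' := by
    intro g x hx
    rw [hJ'] at hx ⊢
    obtain ⟨j, hj, rfl⟩ := hx
    refine ⟨g * j * g⁻¹, hJn.conj_mem j hj g, ?_⟩
    simp only [map_mul, map_inv]
  have hsolJ : Cfsg.IsPSolvable p ↥J' := by
    have h1 : Cfsg.IsPSolvable p ↥J := Cfsg.Agent.Helper19.dl_isPSolvable_subgroup p hsep J
    subst hJ'
    exact ffh_psolv_surj p h1 ((holRho V).subgroupMap J) ((holRho V).subgroupMap_surjective J)
  have hOpJ : Cfsg.pCore p ↥J' = ⊥ := by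
    obtain ⟨P, hP⟩ : ∃ P : Subgroup (Hol V), P = (Cfsg.pCore p ↥J').map J'.subtype := ⟨_, rfl⟩
    have hPJ : P ≤ J' := by
      rw [hP]
      rintro _ ⟨x, -, rfl⟩
      exact x.2
    have hPp : IsPGroup p ↥P := by
      rw [hP]
      exact (Cfsg.Agent.Helper9.pCore_isPGroup p).map _
    have hPnJ : ∀ y ∈ J', ∀ x ∈ P, y * x * y⁻¹ ∈ P := by
      intro y hy x hx
      rw [hP] at hx ⊢
      obtain ⟨x0, hx0, rfl⟩ := hx
      have hnn : (Cfsg.pCore p ↥J').Normal := inferInstance
      exact ⟨(⟨y, hy⟩ : ↥J') * x0 * (⟨y, hy⟩ : ↥J')⁻¹, hnn.conj_mem x0 hx0 _, rfl⟩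
    have hPn : ∀ g : G, ∀ x ∈ P, holRho V g * x * (holRho V g)⁻¹ ∈ P := by
      intro g x hx
      obtain ⟨c, hc⟩ : ∃ c : Hol V, c = holRho V g := ⟨_, rfl⟩
      rw [← hc]
      have hcJ : ∀ y ∈ J', c * y * c⁻¹ ∈ J' := by
        rw [hc]
        exact hJ'n g
      have hcJ' : ∀ y ∈ J', c⁻¹ * y * c ∈ J' := by
        intro y hy
        have h2 := hJ'n g⁻¹ y hy
        rw [map_inv, inv_inv, ← hc] at h2
        exact h2
      obtain ⟨N', hN'⟩ : ∃ N' : Subgroup ↥J',
        N' = (P.map (MulAut.conj c).toMonoidHom).subgroupOf J' := ⟨_, rfl⟩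
      have hN'n : N'.Normal := by
        constructor
        intro n hn y
        rw [hN'] at hn ⊢
        obtain ⟨x1, hx1, hx1e⟩ := Subgroup.mem_subgroupOf.mp hn
        have hx1e' : c * x1 * c⁻¹ = (n : Hol V) := hx1e
        refine Subgroup.mem_subgroupOf.mpr
          ⟨(c⁻¹ * (y : Hol V) * c) * x1 * (c⁻¹ * (y : Hol V) * c)⁻¹,
            hPnJ _ (hcJ' _ y.2) x1 hx1, ?_⟩
        show c * ((c⁻¹ * (y : Hol V) * c) * x1 * (c⁻¹ * (y : Hol V) * c)⁻¹) * c⁻¹ =
          (y : Hol V) * (n : Hol V) * (y : Hol V)⁻¹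
        rw [← hx1e']
        group
      have hN'p : IsPGroup p ↥N' := by
        rw [hN']
        exact (hPp.map _).comap_subtype
      have hle := Cfsg.Agent.Helper9.le_pCore hN'n hN'p
      have hxJ : c * x * c⁻¹ ∈ J' := hcJ x (hPJ hx)
      have hmem : (⟨c * x * c⁻¹, hxJ⟩ : ↥J') ∈ N' := by
        rw [hN']
        exact Subgroup.mem_subgroupOf.mpr ⟨x, hx, rfl⟩
      have h3 := hle hmem
      rw [hP]
      exact ⟨⟨c * x * c⁻¹, hxJ⟩, h3, rfl⟩
    obtain ⟨D, hD⟩ : ∃ D : Subgroup G, D = P.comap (holRho V) := ⟨_, rfl⟩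
    have hDn : D.Normal := by
      constructor
      intro d hd g
      rw [hD] at hd ⊢
      show holRho V (g * d * g⁻¹) ∈ P
      rw [map_mul, map_mul, map_inv]
      exact hPn g _ hd
    have hCD : Subgroup.centralizer (V : Set G) ≤ D := by
      rw [← hker, hD]
      intro x hx
      show holRho V x ∈ P
      rw [MonoidHom.mem_ker.mp hx]
      exact P.one_mem
    have hDmap : D.map (holRho V) = P := by
      rw [hD, Subgroup.map_comap_eq]
      exact inf_eq_right.mpr (hPJ.trans hJ'r)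
    have hrel : ∃ k : ℕ, (Subgroup.centralizer (V : Set G)).relIndex D = p ^ k := by
      rw [← hker, Subgroup.relIndex_ker, hDmap]
      exact IsPGroup.exists_card_eq hPp
    have hDC := hOp D hDn hCD hrel
    have hPbot : P = ⊥ := by
      rw [← hDmap, hDC, ← hker]
      exact (Subgroup.map_eq_bot_iff _).mpr le_rfl
    rw [hP] at hPbot
    exact (Subgroup.map_eq_bot_iff_of_injective _ J'.subtype_injective).mp hPbot
  have hS1 := Cfsg.Agent.Helper20.PLen.centralizer_pPrimeCore_le_of_psolvable p hsolJ hOpJ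
  obtain ⟨hp, hcomp, -, hsup, -, -⟩ := ff_structure (holV V) J' hV' hHV' hf' hS1 hS3 hH1
  refine ⟨hp, ?_⟩
  have hne : Nonempty (FFIdx p (holV V) J') := by
    by_contra hemp
    rw [not_nonempty_iff] at hemp
    apply hH1
    rw [← hsup, iSup_of_empty]
  obtain ⟨E'⟩ := hne
  obtain ⟨hEn, ⟨eSL⟩, -⟩ := hcomp E'
  have hE'J : E'.1 ≤ J' :=
    le_of_le_of_eq (le_iSup (fun E : FFIdx p (holV V) J' => (E : Subgroup (Hol V))) E') hsup
  refine ⟨E'.1.comap (holRho V), ?_, ?_, ?_, ?_⟩
  · rw [← hker]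
    intro x hx
    show holRho V x ∈ E'.1
    rw [MonoidHom.mem_ker.mp hx]
    exact E'.1.one_mem
  · intro e he
    have he' : holRho V e ∈ J' := hE'J he
    rw [hJ'] at he'
    obtain ⟨j, hj, hje⟩ := he'
    have hk : j⁻¹ * e ∈ (holRho V).ker := by
      rw [MonoidHom.mem_ker, map_mul, map_inv, hje, inv_mul_cancel]
    rw [hker] at hk
    have h2 : e = j * (j⁻¹ * e) := by group
    rw [h2]
    exact Subgroup.mul_mem_sup hj hk
  · apply sup_le
    · intro j hj
      have hj' : holRho V j ∈ J' := by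
        rw [hJ']
        exact Subgroup.mem_map_of_mem _ hj
      have hn := hEn hj'
      rw [Subgroup.mem_normalizer_iff] at hn ⊢
      intro h
      have h2 := hn (holRho V h)
      simp only [Subgroup.mem_comap, map_mul, map_inv]
      exact h2
    · refine le_trans ?_ Subgroup.le_normalizer
      rw [← hker]
      intro x hx
      show holRho V x ∈ E'.1
      rw [MonoidHom.mem_ker.mp hx]
      exact E'.1.one_mem
  · have hCn : (Subgroup.centralizer (V : Set G)).Normal := by
      rw [← hker]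
      infer_instance
    have hn : ((Subgroup.centralizer (V : Set G)).subgroupOf
        (E'.1.comap (holRho V))).Normal := inferInstance
    refine ⟨hn, ?_⟩
    obtain ⟨f, hf⟩ : ∃ f : ↥(E'.1.comap (holRho V)) →* ↥E'.1,
      f = (holRho V).subgroupComap E'.1 := ⟨_, rfl⟩
    have hsurj : Function.Surjective f := by
      rintro ⟨y, hy⟩
      obtain ⟨g, rfl⟩ := hJ'r (hE'J hy)
      refine ⟨⟨g, hy⟩, ?_⟩
      rw [hf]
      rfl
    have hkf : f.ker = (Subgroup.centralizer (V : Set G)).subgroupOf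
        (E'.1.comap (holRho V)) := by
      ext x
      rw [MonoidHom.mem_ker, Subgroup.mem_subgroupOf, ← hker, MonoidHom.mem_ker, hf]
      constructor
      · intro h
        exact congrArg Subtype.val h
      · intro h
        exact Subtype.ext h
    exact ⟨((QuotientGroup.quotientMulEquivOfEq hkf).symm.trans
      (QuotientGroup.quotientKerEquivOfSurjective f hsurj)).trans eSL⟩

end Cfsg.Agent.Helper1
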