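import Mathlib
import Cfsg.Agent.Helper1.FFTrans2
import Cfsg.Agent.S0606
import Cfsg.Agent.Helper4.ElemAb
import Cfsg.Agent.Helper4.CardMul

set_option autoImplicit false

namespace Cfsg.Agent.Helper1

open scoped commutatorElement Pointwise

/-- `[Ω₁(Z(J(C_G(V)))), J(G)] ≤ V` -/
theorem ffw_main {G : Type*} [Group G] [Finite G] {p : ℕ} [Fact p.Prime]
    (V : Subgroup G) [hVn : V.Normal] (hV : Cfsg.IsElementaryAbelian p V)
    (hsep : Cfsg.IsPSolvable p G)
    (hJn : (Cfsg.thompsonSubgroup p G).Normal)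
    (C : Subgroup G) (hC : C = Subgroup.centralizer (V : Set G))
    (hOp : ∀ D : Subgroup G, D.Normal → Subgroup.centralizer (V : Set G) ≤ D →
      (∃ k : ℕ, (Subgroup.centralizer (V : Set G)).relIndex D = p ^ k) →
      D = Subgroup.centralizer (V : Set G))
    (W : Subgroup G) (hW : W = Cfsg.omegaOne p (Cfsg.centerThompsonOf p C)) :
    ⁅W, Cfsg.thompsonSubgroup p G⁆ ≤ V := by
  classical
  have hVC : V ≤ C := by
    rw [hC]
    exact Subgroup.le_centralizer_iff_isMulCommutative.mpr hV.1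
  have hWZ : W ≤ Cfsg.centerThompsonOf p C := by
    rw [hW]
    unfold Cfsg.omegaOne
    rw [Subgroup.closure_le]
    intro x hx
    exact hx.1
  have hWcJ : W ≤ Subgroup.centralizer (Cfsg.thompsonSubgroupOf p C : Set G) :=
    hWZ.trans inf_le_right
  have hWJ : W ≤ Cfsg.thompsonSubgroupOf p C := hWZ.trans inf_le_left
  have hWW : W ≤ Subgroup.centralizer (W : Set G) := hWcJ.trans (Subgroup.centralizer_le hWJ)
  have hWEA : Cfsg.IsElementaryAbelian p W := by
    refine ⟨Subgroup.le_centralizer_iff_isMulCommutative.mp hWW, ?_⟩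
    have hcl : ∀ x ∈ Subgroup.closure {x : G | x ∈ Cfsg.centerThompsonOf p C ∧ x ^ p = 1},
        x ^ p = 1 ∧ x ∈ W := by
      intro x hx
      induction hx using Subgroup.closure_induction with
      | mem y hy => exact ⟨hy.2, by rw [hW]; exact Subgroup.subset_closure hy⟩
      | one => exact ⟨one_pow p, W.one_mem⟩
      | mul y z _ _ ihy ihz =>
        refine ⟨?_, W.mul_mem ihy.2 ihz.2⟩
        have hcomm : Commute y z := (Subgroup.mem_centralizer_iff.mp (hWW ihz.2)) y ihy.2
        rw [hcomm.mul_pow, ihy.1, ihz.1, one_mul]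
      | inv y _ ihy => exact ⟨by rw [inv_pow, ihy.1, inv_one], W.inv_mem ihy.2⟩
    intro x hx
    rw [hW] at hx
    exact (hcl x hx).1
  let T : Subgroup G :=
    { carrier := {g | ∀ w ∈ W, ⁅w, g⁆ ∈ V}
      mul_mem' := by
        intro g h hg hh w hw
        have e : ⁅w, g * h⁆ = ⁅w, g⁆ * (g * ⁅w, h⁆ * g⁻¹) := by
          simp only [commutatorElement_def]
          group
        rw [e]
        exact V.mul_mem (hg w hw) (hVn.conj_mem _ (hh w hw) g)
      one_mem' := by
        intro w _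
        rw [commutatorElement_one_right]
        exact V.one_mem
      inv_mem' := by
        intro g hg w hw
        have e : ⁅w, g⁻¹⁆ = g⁻¹ * ⁅w, g⁆⁻¹ * g⁻¹⁻¹ := by
          simp only [commutatorElement_def]
          group
        rw [e]
        exact hVn.conj_mem _ (V.inv_mem (hg w hw)) g⁻¹ }
  have hT : ∀ A ∈ Cfsg.maxElementaryAbelianSubgroups p G, A ≤ T := by
    intro A hA a ha
    show ∀ w ∈ W, ⁅w, a⁆ ∈ V
    intro w hw
    have hAc : A ≤ Subgroup.centralizer (A : Set G) :=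
      Subgroup.le_centralizer_iff_isMulCommutative.mpr hA.1.1
    have hB1 : Cfsg.IsElementaryAbelian p (A ⊓ C) :=
      Cfsg.Agent.Helper4.isElementaryAbelian_of_le hA.1 inf_le_left
    have hVB : V ≤ Subgroup.centralizer ((A ⊓ C : Subgroup G) : Set G) := by
      apply Subgroup.le_centralizer_iff.mp
      rw [← hC]
      exact inf_le_right
    have hB := Cfsg.Agent.Helper4.isElementaryAbelian_sup hB1 hV hVB
    obtain ⟨B, hBdef⟩ : ∃ B : Subgroup G, B = (A ⊓ C) ⊔ V := ⟨_, rfl⟩
    rw [← hBdef] at hB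
    have hBle : Nat.card ↥B ≤ Nat.card ↥A := hA.2 _ hB
    have hcs := Cfsg.Agent.Helper4.card_sup_mul_card_inf (A ⊓ C) V
      (by rw [Subgroup.normalizer_eq_top]; exact le_top)
    rw [← hBdef] at hcs
    have hinf : (A ⊓ C) ⊓ V ≤ V ⊓ Subgroup.centralizer (A : Set G) := by
      intro x hx
      obtain ⟨hx1, hx2⟩ := Subgroup.mem_inf.mp hx
      exact Subgroup.mem_inf.mpr ⟨hx2, hAc (Subgroup.mem_inf.mp hx1).1⟩
    have hBge : Nat.card ↥A ≤ Nat.card ↥B := by
      by_cases hAC : A ≤ Subgroup.centralizer (V : Set G)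
      · apply Subgroup.card_le_of_le
        rw [hBdef]
        rw [← hC] at hAC
        exact le_trans (le_inf le_rfl hAC) le_sup_left
      · have h1 := ff_card_A V hV (Cfsg.thompsonSubgroup p G) (hJn := hJn)
          (Cfsg.maxElementaryAbelianSubgroups p G) rfl
          (fun A hA => Cfsg.Agent.S0606.result V hV A hA) hsep hOp A hA hAC
        have h2 : Nat.card ↥((A ⊓ C) ⊓ V : Subgroup G) ≤
            Nat.card ↥(V ⊓ Subgroup.centralizer (A : Set G)) := Subgroup.card_le_of_le hinf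
        rw [← hC, inf_comm C A, ← hcs] at h1
        have h3 : Nat.card ↥A * Nat.card ↥(V ⊓ Subgroup.centralizer (A : Set G)) ≤
            Nat.card ↥B * Nat.card ↥(V ⊓ Subgroup.centralizer (A : Set G)) := by
          rw [h1]
          exact Nat.mul_le_mul_left _ h2
        exact Nat.le_of_mul_le_mul_right h3 Nat.card_pos
    have hcardB : Nat.card ↥B = Nat.card ↥A := le_antisymm hBle hBge
    have hBmax : B ∈ Cfsg.maxElementaryAbelianSubgroups p G :=
      ⟨hB, fun B₂ hB₂ => (hA.2 B₂ hB₂).trans (le_of_eq hcardB.symm)⟩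
    have hBC : B ≤ C := by
      rw [hBdef]
      exact sup_le inf_le_right hVC
    have hBJ : B ≤ Cfsg.thompsonSubgroupOf p C := by
      have h1 := Cfsg.Agent.Helper4.maxEA_subgroupOf C hBmax hBC
      have h2 : B.subgroupOf C ≤ Cfsg.thompsonSubgroup p ↥C := le_sSup h1
      have h3 := Subgroup.map_mono (f := C.subtype) h2
      rw [Subgroup.map_subgroupOf_eq_of_le hBC] at h3
      exact h3
    have hWB : W ≤ Subgroup.centralizer (B : Set G) :=
      hWcJ.trans (Subgroup.centralizer_le hBJ)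
    have hBW := Cfsg.Agent.Helper4.isElementaryAbelian_sup hB hWEA hWB
    have hBWle : Nat.card ↥(B ⊔ W : Subgroup G) ≤ Nat.card ↥B :=
      (hA.2 _ hBW).trans (le_of_eq hcardB.symm)
    have hBWeq : B = B ⊔ W := Subgroup.eq_of_le_of_card_ge le_sup_left hBWle
    have hwB : w ∈ B := by
      rw [hBWeq]
      exact Subgroup.mem_sup_right hw
    rw [hBdef] at hwB
    have hmul : ((↑((A ⊓ C) ⊔ V : Subgroup G)) : Set G) =
        ((A ⊓ C : Subgroup G) : Set G) * (V : Set G) := Subgroup.mul_normal (A ⊓ C) V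
    have hwB' : w ∈ ((A ⊓ C : Subgroup G) : Set G) * (V : Set G) := by
      rw [← hmul]
      exact hwB
    obtain ⟨c, hc, v, hv, rfl⟩ := Set.mem_mul.mp hwB'
    have hc' : c ∈ A ⊓ C := hc
    have hv' : v ∈ V := hv
    have hcA : c ∈ A := (Subgroup.mem_inf.mp hc').1
    have hca : c * a = a * c := (Subgroup.mem_centralizer_iff.mp (hAc ha)) c hcA
    have h1 : c⁻¹ * a⁻¹ = a⁻¹ * c⁻¹ := by rw [← mul_inv_rev, ← mul_inv_rev, hca]
    have e : ⁅c * v, a⁆ = c * ⁅v, a⁆ * c⁻¹ := by
      rw [commutatorElement_def, commutatorElement_def]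
      calc c * v * a * (c * v)⁻¹ * a⁻¹ = c * v * a * v⁻¹ * (c⁻¹ * a⁻¹) := by group
        _ = c * v * a * v⁻¹ * (a⁻¹ * c⁻¹) := by rw [h1]
        _ = c * (v * a * v⁻¹ * a⁻¹) * c⁻¹ := by group
    rw [e]
    apply hVn.conj_mem
    rw [commutatorElement_def]
    have h2 : v * a * v⁻¹ * a⁻¹ = v * (a * v⁻¹ * a⁻¹) := by group
    rw [h2]
    exact V.mul_mem hv' (hVn.conj_mem _ (V.inv_mem hv') a)
  have hJT : Cfsg.thompsonSubgroup p G ≤ T := sSup_le hT
  rw [Subgroup.commutator_le]
  intro w hw g hg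
  exact (show ∀ w ∈ W, ⁅w, g⁆ ∈ V from hJT hg) w hw

end Cfsg.Agent.Helper1
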