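import Mathlib
import Cfsg.Agent.Helper1.FFAll

set_option autoImplicit false

namespace Cfsg.Agent.Helper1

theorem ffx_final {G : Type*} [Group G] [Finite G] {p : ℕ} [Fact p.Prime] (a b x y : G)
    (hxy : x * y = y * x) (hxp : x ^ p = 1) (hyp : y ^ p = 1) (hx1 : x ≠ 1)
    (hax : a * x * a⁻¹ = x) (hay : a * y * a⁻¹ = y * x)
    (hbx : b * x * b⁻¹ = x * y) (hby : b * y * b⁻¹ = y) :
    Cfsg.IsElementaryAbelian p (Subgroup.closure ({x, y} : Set G)) ∧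
    Nat.card ↥(Subgroup.closure ({x, y} : Set G)) = p ^ 2 ∧
    Subgroup.closure ({a, b} : Set G) ≤
      Subgroup.normalizer ((Subgroup.closure ({x, y} : Set G) : Subgroup G) : Set G) ∧
    ∃ hn : ((Subgroup.centralizer
        ((Subgroup.closure ({x, y} : Set G) : Subgroup G) : Set G)).subgroupOf
          (Subgroup.closure ({a, b} : Set G))).Normal,
      Nonempty ((↥(Subgroup.closure ({a, b} : Set G)) ⧸
        (Subgroup.centralizer
          ((Subgroup.closure ({x, y} : Set G) : Subgroup G) : Set G)).subgroupOf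
            (Subgroup.closure ({a, b} : Set G))) ≃*
          Matrix.SpecialLinearGroup (Fin 2) (ZMod p)) := by
  obtain ⟨W, hW⟩ : ∃ W : Subgroup G, W = Subgroup.closure ({x, y} : Set G) := ⟨_, rfl⟩
  obtain ⟨L, hL⟩ : ∃ L : Subgroup G, L = Subgroup.closure ({a, b} : Set G) := ⟨_, rfl⟩
  rw [← hW, ← hL]
  have hxW : x ∈ W := by rw [hW]; exact Subgroup.subset_closure (Set.mem_insert _ _)
  have hyW : y ∈ W := by
    rw [hW]; exact Subgroup.subset_closure (Set.mem_insert_of_mem _ (Set.mem_singleton _))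
  have haL : a ∈ L := by rw [hL]; exact Subgroup.subset_closure (Set.mem_insert _ _)
  have hbL : b ∈ L := by
    rw [hL]; exact Subgroup.subset_closure (Set.mem_insert_of_mem _ (Set.mem_singleton _))
  have hc : Commute x y := hxy
  have hwf : ∀ w ∈ W, ∃ i j : ℕ, w = x ^ i * y ^ j := by
    rw [hW]
    apply ffp_closure_induction (P := fun w => ∃ i j : ℕ, w = x ^ i * y ^ j)
    · intro c hc'
      rcases hc' with hcx | hcy
      · exact ⟨1, 0, by rw [hcx, pow_one, pow_zero, mul_one]⟩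
      · exact ⟨0, 1, by rw [Set.mem_singleton_iff.mp hcy, pow_one, pow_zero, one_mul]⟩
    · exact ⟨0, 0, by rw [pow_zero, pow_zero, mul_one]⟩
    · rintro g h ⟨i, j, hg⟩ ⟨k, l, hh⟩
      exact ⟨i + k, j + l, by rw [hg, hh, ffp_wf_mul hc]⟩
  have hcommW : ∀ u ∈ W, ∀ v ∈ W, u * v = v * u := by
    intro u hu v hv
    obtain ⟨i, j, rfl⟩ := hwf u hu
    obtain ⟨k, l, rfl⟩ := hwf v hv
    rw [ffp_wf_mul hc, ffp_wf_mul hc, add_comm i k, add_comm j l]
  have hexpW : ∀ v ∈ W, v ^ p = 1 := by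
    intro v hv
    obtain ⟨i, j, rfl⟩ := hwf v hv
    rw [(hc.pow_pow i j).mul_pow, ← pow_mul, ← pow_mul, mul_comm i p, mul_comm j p, pow_mul,
      pow_mul, hxp, hyp, one_pow, one_pow, mul_one]
  have hav : ∀ v ∈ W, ∃ n : ℕ, a * v * a⁻¹ = v * x ^ n := by
    intro v hv
    obtain ⟨i, j, rfl⟩ := hwf v hv
    refine ⟨j, ?_⟩
    rw [ffp_conj_mul, ffp_conj_pow, ffp_conj_pow, hax, hay, hc.symm.mul_pow, mul_assoc]
  have hbv : ∀ v ∈ W, ∃ n : ℕ, b * v * b⁻¹ = v * y ^ n := by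
    intro v hv
    obtain ⟨i, j, rfl⟩ := hwf v hv
    refine ⟨i, ?_⟩
    rw [ffp_conj_mul, ffp_conj_pow, ffp_conj_pow, hbx, hby, hc.mul_pow, mul_assoc, mul_assoc,
      ← pow_add, ← pow_add, add_comm]
  have P : TPair p W a b x y := ⟨hcommW, hexpW, hxW, hyW, hx1, hax, hay, hbx, hby, hav, hbv⟩
  have hcardW : Nat.card ↥W = p ^ 2 := by rw [hW]; exact P.card_W
  have hEA : Cfsg.IsElementaryAbelian p W :=
    ⟨⟨⟨fun u v => Subtype.ext (hcommW u.1 u.2 v.1 v.2)⟩⟩, hexpW⟩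
  have hLW : ∀ g ∈ L, ∀ w ∈ W, g * w * g⁻¹ ∈ W := by
    intro g hg w hw
    obtain ⟨i, j, hij⟩ := P.act g (by rw [← hL]; exact hg) w hw
    rw [hij]
    exact W.mul_mem hw (W.mul_mem (W.pow_mem hxW i) (W.pow_mem hyW j))
  have hnorm : L ≤ Subgroup.normalizer (W : Set G) := by
    intro g hg
    rw [Subgroup.mem_normalizer_iff]
    intro w
    constructor
    · exact hLW g hg w
    · intro h
      have h2 := hLW g⁻¹ (L.inv_mem hg) _ h
      have e : g⁻¹ * (g * w * g⁻¹) * g⁻¹⁻¹ = w := by group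
      rw [e] at h2
      exact h2
  obtain ⟨ρ, hρ⟩ := ffp_exists_conj_hom W L hLW
  have hker : ρ.ker = (Subgroup.centralizer (W : Set G)).subgroupOf L := by
    ext g
    rw [MonoidHom.mem_ker, Subgroup.mem_subgroupOf, Subgroup.mem_centralizer_iff]
    constructor
    · intro h w hw
      have h2 := hρ g ⟨w, hw⟩
      rw [h] at h2
      have h3 : (g : G) * w * (g : G)⁻¹ = w := h2.symm
      calc w * (g : G) = (g : G) * w * (g : G)⁻¹ * (g : G) := by rw [h3]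
        _ = (g : G) * w := by group
    · intro h
      refine MulEquiv.ext (fun w => Subtype.ext ?_)
      rw [hρ]
      have h2 := h w w.2
      show (g : G) * (w : G) * (g : G)⁻¹ = (w : G)
      rw [← h2]
      exact mul_inv_cancel_right _ _
  have hn : ((Subgroup.centralizer (W : Set G)).subgroupOf L).Normal := by
    rw [← hker]; infer_instance
  refine ⟨hEA, hcardW, hnorm, hn, ?_⟩
  have hgenL : Subgroup.closure ({(⟨a, haL⟩ : ↥L), ⟨b, hbL⟩} : Set ↥L) = ⊤ := by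
    have h1 : (Subgroup.closure ({(⟨a, haL⟩ : ↥L), ⟨b, hbL⟩} : Set ↥L)).map L.subtype = L := by
      rw [MonoidHom.map_closure, Set.image_pair]
      exact hL.symm
    rw [eq_top_iff]
    intro g _
    have hg : (g : G) ∈ (Subgroup.closure ({(⟨a, haL⟩ : ↥L), ⟨b, hbL⟩} : Set ↥L)).map
        L.subtype := by
      rw [h1]; exact g.2
    obtain ⟨g', hg', hgg'⟩ := hg
    have h2 : g' = g := Subtype.ext hgg'
    rw [← h2]; exact hg'
  have hgen : Subgroup.closure ({(QuotientGroup.mk' ρ.ker ⟨a, haL⟩ : ↥L ⧸ ρ.ker),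
      QuotientGroup.mk' ρ.ker ⟨b, hbL⟩} : Set (↥L ⧸ ρ.ker)) = ⊤ := by
    have h1 := congrArg (Subgroup.map (QuotientGroup.mk' ρ.ker)) hgenL
    rw [MonoidHom.map_closure, Set.image_pair,
      Subgroup.map_top_of_surjective _ (QuotientGroup.mk'_surjective _)] at h1
    exact h1
  have e1 : QuotientGroup.kerLift ρ (QuotientGroup.mk' ρ.ker ⟨a, haL⟩) ⟨x, hxW⟩ = ⟨x, hxW⟩ :=
    Subtype.ext (by
      show ((ρ ⟨a, haL⟩ ⟨x, hxW⟩ : ↥W) : G) = x
      rw [hρ]; exact hax)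
  have e2 : QuotientGroup.kerLift ρ (QuotientGroup.mk' ρ.ker ⟨a, haL⟩) ⟨y, hyW⟩
      = ⟨y, hyW⟩ * ⟨x, hxW⟩ :=
    Subtype.ext (by
      show ((ρ ⟨a, haL⟩ ⟨y, hyW⟩ : ↥W) : G) = y * x
      rw [hρ]; exact hay)
  have e3 : QuotientGroup.kerLift ρ (QuotientGroup.mk' ρ.ker ⟨b, hbL⟩) ⟨y, hyW⟩ = ⟨y, hyW⟩ :=
    Subtype.ext (by
      show ((ρ ⟨b, hbL⟩ ⟨y, hyW⟩ : ↥W) : G) = y
      rw [hρ]; exact hby)
  have e4 : QuotientGroup.kerLift ρ (QuotientGroup.mk' ρ.ker ⟨b, hbL⟩) ⟨x, hxW⟩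
      = ⟨x, hxW⟩ * ⟨y, hyW⟩ :=
    Subtype.ext (by
      show ((ρ ⟨b, hbL⟩ ⟨x, hxW⟩ : ↥W) : G) = x * y
      rw [hρ]; exact hbx)
  obtain ⟨ψ, -, -, -⟩ := ffp_sl2_of_action (p := p) (Y := ↥L ⧸ ρ.ker) (W := ↥W)
    (fun u v => Subtype.ext (hcommW u.1 u.2 v.1 v.2))
    (fun v => Subtype.ext (by
      rw [Subgroup.coe_pow, Subgroup.coe_one]; exact hexpW v.1 v.2))
    hcardW (QuotientGroup.kerLift ρ) (QuotientGroup.kerLift_injective ρ)
    (QuotientGroup.mk' ρ.ker ⟨a, haL⟩) (QuotientGroup.mk' ρ.ker ⟨b, hbL⟩) ⟨x, hxW⟩ ⟨y, hyW⟩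
    (fun h => hx1 (congrArg Subtype.val h))
    (fun n h => P.y_ne n (by
      have h' := congrArg Subtype.val h
      rwa [Subgroup.coe_pow] at h'))
    e1 e2 e3 e4 hgen
  haveI := hn
  exact ⟨(QuotientGroup.quotientMulEquivOfEq hker).symm.trans ψ.symm⟩

end Cfsg.Agent.Helper1
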