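import Mathlib
import Cfsg.Agent.Helper1.QdNps
import Cfsg.Agent.Helper1.ZJNpc
import Cfsg.Agent.Helper1.ZJBridge
import Cfsg.Agent.S1969
import Cfsg.Agent.S1987

set_option autoImplicit false

universe u

namespace Cfsg.Agent.Helper1

open scoped commutatorElement
open Matrix

section QdFun

/-- The Weyl element of `SL₂`. -/
def weyl (F : Type*) [Field F] : Matrix.SpecialLinearGroup (Fin 2) F :=
  ⟨!![0, -1; 1, 0], by rw [Matrix.det_fin_two]; simp⟩

theorem uni_zero' {F : Type*} [Field F] : Helper16.uni (0 : F) = 1 := by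
  apply Helper16.sl2_ext
  · show (1 : F) = (1 : Matrix (Fin 2) (Fin 2) F) 0 0
    exact (Matrix.one_apply_eq 0).symm
  · show (0 : F) = (1 : Matrix (Fin 2) (Fin 2) F) 0 1
    exact (Matrix.one_apply_ne (by decide)).symm
  · show (0 : F) = (1 : Matrix (Fin 2) (Fin 2) F) 1 0
    exact (Matrix.one_apply_ne (by decide)).symm
  · show (1 : F) = (1 : Matrix (Fin 2) (Fin 2) F) 1 1
    exact (Matrix.one_apply_eq 1).symm

theorem heis_zero_eq {F : Type*} [Field F] (x y : F) :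
    Helper16.heis 0 x y = Helper16.qdLift 1 ![x, y] := by
  show Helper16.qdLift (Helper16.uni 0) ![x, y] = Helper16.qdLift 1 ![x, y]
  rw [uni_zero']

theorem qdSec_mul_trans {F : Type*} [Field F] (A : Matrix.SpecialLinearGroup (Fin 2) F)
    (t : Fin 2 → F) :
    Helper16.qdSec F A * Helper16.qdLift 1 t =
      Helper16.qdLift 1 (A.1 *ᵥ t) * Helper16.qdSec F A := by
  show Helper16.qdLift A 0 * Helper16.qdLift 1 t =
    Helper16.qdLift 1 (A.1 *ᵥ t) * Helper16.qdLift A 0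
  rw [qdLift_mul', qdLift_mul', mul_one, one_mul, Matrix.mulVec_zero, zero_add, add_zero]

theorem weyl_mulVec {F : Type*} [Field F] : (weyl F).1 *ᵥ ![1, 0] = ![0, 1] := by
  have h0 : ((weyl F).1 *ᵥ ![1, 0]) 0 = 0 := by
    simp [weyl, Matrix.mulVec, dotProduct, Fin.sum_univ_two]
  have h1 : ((weyl F).1 *ᵥ ![1, 0]) 1 = 1 := by
    simp [weyl, Matrix.mulVec, dotProduct, Fin.sum_univ_two]
  exact funext (Fin.forall_fin_two.mpr ⟨h0, h1⟩)

/-- An "upper triangular" element of `Qd` does not conjugate the central translation to the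
other basis translation. -/
theorem qd_upper_conj_ne {F : Type*} [Field F] (g : ↥(Cfsg.qdOver F)) (hg : g.1.1 1 0 = 0) :
    g * Helper16.heis 0 1 0 * g⁻¹ ≠ Helper16.heis 0 0 1 := by
  intro h
  have h1 : g * Helper16.heis 0 1 0 = Helper16.heis 0 0 1 * g := by
    rw [← h]; group
  obtain ⟨-, -, r2⟩ := Helper16.qdOver_row g
  have e1 : (g * Helper16.heis 0 1 0).1.1 1 2 =
      g.1.1 1 0 * 1 + g.1.1 1 1 * 0 + g.1.1 1 2 * 1 :=
    Helper16.qdOver_mul_apply g _ 1 2
  have e2 : (Helper16.heis 0 0 1 * g).1.1 1 2 =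
      0 * g.1.1 0 2 + 1 * g.1.1 1 2 + 1 * g.1.1 2 2 :=
    Helper16.qdOver_mul_apply _ g 1 2
  have h2 : (g * Helper16.heis 0 1 0).1.1 1 2 = (Helper16.heis 0 0 1 * g).1.1 1 2 := by
    rw [h1]
  rw [e1, e2, hg, r2] at h2
  have h3 : (0 : F) = 1 := by linear_combination h2
  exact zero_ne_one h3

/-- The translation subgroup of a group isomorphic to `Qd`. -/
theorem qd_trans_subgroup {F : Type*} [Field F] (p : ℕ) [CharP F p] {X : Type*} [Group X]
    (e : X ≃* ↥(Cfsg.qdOver F)) :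
    ∃ P : Subgroup X, (∀ x : X, x ∈ P ↔ Helper16.qdPi F (e x) = 1) ∧ IsPGroup p P ∧
      P.Normal := by
  refine ⟨(Helper16.qdPi F).ker.comap e.toMonoidHom, fun x => Iff.rfl,
    (Helper16.qdPi_ker_isPGroup).comap_of_injective e.toMonoidHom e.injective, ?_⟩
  exact (MonoidHom.normal_ker _).comap _

/-- **No characteristic functor controls strong fusion in `Qd(p)`.** -/
theorem qd_functor_not_ctl (p : ℕ) [Fact p.Prime] (W : ∀ (Q : Type u) [Group Q], Subgroup Q)
    (hW : Cfsg.IsCharPFunctor.{u} p W) {X : Type u} [Group X] [Finite X]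
    (e : X ≃* ↥(Cfsg.qdOver (ZMod p))) :
    ∃ T : Sylow p X, ¬ Cfsg.ControlsStrongFusion p (Cfsg.inducedFunctor W (T : Subgroup X)) := by
  classical
  obtain ⟨T, hT⟩ : ∃ T : Sylow p X,
      (T : Subgroup X) = (Helper16.qdS0 (ZMod p)).map e.symm.toMonoidHom :=
    ⟨Sylow.mapSurjective (f := e.symm.toMonoidHom) e.symm.surjective
      (Helper16.qdSylow (ZMod p) p), Sylow.coe_mapSurjective _ _⟩
  refine ⟨T, ?_⟩
  have hTmem : ∀ x : X, x ∈ (T : Subgroup X) ↔ e x ∈ Helper16.qdS0 (ZMod p) := by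
    intro x
    rw [hT]
    constructor
    · rintro ⟨y, hy, rfl⟩
      show e (e.symm y) ∈ Helper16.qdS0 (ZMod p)
      rw [MulEquiv.apply_symm_apply]; exact hy
    · intro hx
      exact Subgroup.mem_map.mpr ⟨e x, hx, e.symm_apply_apply x⟩
  obtain ⟨ε, hε⟩ : ∃ ε : ↥(T : Subgroup X) ≃* ↥(Helper16.qdS0 (ZMod p)),
      ∀ t : ↥(T : Subgroup X),
        ((ε t : ↥(Helper16.qdS0 (ZMod p))) : ↥(Cfsg.qdOver (ZMod p))) = e (t : X) :=
    ⟨{ toFun := fun t => ⟨e t.1, (hTmem t.1).mp t.2⟩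
       invFun := fun s => ⟨e.symm s.1, (hTmem _).mpr (by rw [e.apply_symm_apply]; exact s.2)⟩
       left_inv := fun t => Subtype.ext (e.symm_apply_apply t.1)
       right_inv := fun s => Subtype.ext (e.apply_symm_apply s.1)
       map_mul' := fun a b => Subtype.ext (map_mul e a.1 b.1) }, fun t => rfl⟩
  obtain ⟨U, hU⟩ : ∃ U : Subgroup X, U = Cfsg.inducedFunctor W (T : Subgroup X) := ⟨_, rfl⟩
  rw [← hU]
  have hUdef : U = (W ↥(T : Subgroup X)).map (T : Subgroup X).subtype := hU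
  obtain ⟨T₀, hT₀⟩ : ∃ T₀ : Subgroup ↥(Helper16.qdS0 (ZMod p)),
      T₀ = (W ↥(T : Subgroup X)).map ε.toMonoidHom := ⟨_, rfl⟩
  obtain ⟨z, hz⟩ : ∃ z : X, e z = Helper16.heis 0 1 0 := ⟨e.symm _, e.apply_symm_apply _⟩
  obtain ⟨y, hy⟩ : ∃ y : X, e y = Helper16.heis 0 0 1 := ⟨e.symm _, e.apply_symm_apply _⟩
  obtain ⟨w, hw⟩ : ∃ w : X, e w = Helper16.qdSec (ZMod p) (weyl (ZMod p)) :=
    ⟨e.symm _, e.apply_symm_apply _⟩
  have hwz : w * z * w⁻¹ = y := by
    apply mul_inv_eq_of_eq_mul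
    apply e.injective
    rw [map_mul, map_mul, hw, hz, hy, heis_zero_eq, heis_zero_eq, qdSec_mul_trans, weyl_mulVec]
  have hzT : z ∈ (T : Subgroup X) := by
    rw [hTmem, hz]; exact Helper16.heis_mem 0 1 0
  have hz1 : z ≠ 1 := by
    intro h
    have h1 : Helper16.heis (0 : ZMod p) 1 0 = 1 := by rw [← hz, h, map_one]
    have h2 : Helper16.heis (0 : ZMod p) 1 0 = Helper16.heis 0 0 0 := by
      rw [h1, Helper16.heis_zero]
    have h3 : (1 : ZMod p) = 0 :=
      congrArg (fun M : ↥(Cfsg.qdOver (ZMod p)) => M.1.1 0 2) h2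
    exact one_ne_zero h3
  haveI : Nontrivial ↥(T : Subgroup X) :=
    ⟨⟨⟨z, hzT⟩, 1, fun h => hz1 (congrArg Subtype.val h)⟩⟩
  have hWne : W ↥(T : Subgroup X) ≠ ⊥ := hW.1 ↥(T : Subgroup X) T.isPGroup' inferInstance
  have hT₀ne : T₀ ≠ ⊥ := by
    rw [hT₀]
    intro h
    exact hWne ((Subgroup.map_eq_bot_iff_of_injective _ ε.injective).mp h)
  have hchar : T₀.Characteristic := by
    rw [Subgroup.characteristic_iff_map_eq]
    intro φ
    have h1 := hW.2 ↥(T : Subgroup X) ↥(T : Subgroup X) T.isPGroup'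
      ((ε.trans φ).trans ε.symm)
    have h2 : φ.toMonoidHom.comp ε.toMonoidHom =
        ε.toMonoidHom.comp ((ε.trans φ).trans ε.symm).toMonoidHom := by
      refine MonoidHom.ext (fun t => ?_)
      show φ (ε t) = ε (ε.symm (φ (ε t)))
      rw [MulEquiv.apply_symm_apply]
    rw [hT₀, Subgroup.map_map, h2, ← Subgroup.map_map, h1]
  have hmapeq : T₀.map (Helper16.qdS0 (ZMod p)).subtype = U.map e.toMonoidHom := by
    rw [hT₀, hUdef, Subgroup.map_map, Subgroup.map_map]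
    congr 1
    refine MonoidHom.ext (fun t => ?_)
    exact hε t
  have hN : ∀ x ∈ Subgroup.normalizer (U : Set X), (e x).1.1 1 0 = 0 := by
    intro x hx
    apply Helper16.qdS0_char_normalizer_le T₀ hT₀ne hchar (e x)
    rw [hmapeq]
    exact Subgroup.le_normalizer_map e.toMonoidHom (Subgroup.mem_map_of_mem e.toMonoidHom hx)
  obtain ⟨P, hPmem, hPp, hPn⟩ := qd_trans_subgroup (F := ZMod p) p e
  have hzP : z ∈ P := by
    rw [hPmem, hz, heis_zero_eq, Helper16.qdPi_lift]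
  have hyP : y ∈ P := by
    rw [hPmem, hy, heis_zero_eq, Helper16.qdPi_lift]
  rintro ⟨T', -, hctl⟩
  have hPT' : P ≤ (T' : Subgroup X) := by
    haveI := hPn
    exact normal_pgroup_le_sylow P hPp T'
  have hA : ({z} : Set X) ⊆ (T' : Subgroup X) := Set.singleton_subset_iff.mpr (hPT' hzP)
  have hwA : (fun a => w * a * w⁻¹) '' ({z} : Set X) ⊆ (T' : Subgroup X) := by
    rintro _ ⟨a, ha, rfl⟩
    rw [Set.mem_singleton_iff.mp ha]
    show w * z * w⁻¹ ∈ (T' : Subgroup X)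
    rw [hwz]
    exact hPT' hyP
  obtain ⟨x, hxN, hx⟩ := (hctl {z} hA).2 w hwA
  have h1 := hx z (Set.mem_singleton z)
  have h2 : e (x * z * x⁻¹) = e y := by rw [← h1, hwz]
  rw [map_mul, map_mul, map_inv, hz, hy] at h2
  exact qd_upper_conj_ne (e x) (hN x hxN) h2

/-- Sections of a `Qd(p)`-free group are `Qd(p)`-free. -/
theorem qd_free_section {G : Type u} [Group G] {p : ℕ} (hfree : ¬ Cfsg.Involves ↥(Cfsg.qd p) G)
    (K R : Subgroup G) [hR : (R.subgroupOf K).Normal] :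
    ¬ Cfsg.Involves ↥(Cfsg.qd p) (↥K ⧸ R.subgroupOf K) := by
  intro hinv
  exact hfree (Helper27.involves_of_injective K.subtype K.subtype_injective
    (involves_of_surjective_hom (QuotientGroup.mk' (R.subgroupOf K))
      (QuotientGroup.mk'_surjective _) hinv))

/-- In a `Qd(p)`-free group (`p` odd), `Z(J(T))` controls strong fusion in every section. -/
theorem zj_ctl_of_qd_free {G : Type u} [Group G] [Finite G] {p : ℕ} [Fact p.Prime] (hp : p ≠ 2)
    (hfree : ¬ Cfsg.Involves ↥(Cfsg.qd p) G) (K R : Subgroup G) [hR : (R.subgroupOf K).Normal]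
    (T : Sylow p (↥K ⧸ R.subgroupOf K)) :
    Cfsg.ControlsStrongFusion p
      (Cfsg.centerThompsonAOf (T : Subgroup (↥K ⧸ R.subgroupOf K))) := by
  have hloc : ∀ (K R : Subgroup G) [hR : (R.subgroupOf K).Normal],
      Subgroup.centralizer ((Cfsg.pCore p (↥K ⧸ R.subgroupOf K) :
        Subgroup (↥K ⧸ R.subgroupOf K)) : Set (↥K ⧸ R.subgroupOf K)) ≤
        Cfsg.pCore p (↥K ⧸ R.subgroupOf K) →
      ∀ T : Sylow p (↥K ⧸ R.subgroupOf K),
        (Cfsg.inducedFunctor (G := (↥K ⧸ R.subgroupOf K)) (WZ 0)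
          ((T : Subgroup (↥K ⧸ R.subgroupOf K)))).Normal := by
    intro K' R' hR' hcen T'
    rw [inducedFunctor_WZ]
    exact generic_ZJ hp (Or.inl rfl) T' (T' : Subgroup (↥K' ⧸ R'.subgroupOf K')) le_rfl
      (fun x _ g hg => hg) hcen
      (fun V _ hV a _ hq => pstab_qd_on hp (qd_free_section hfree K' R') V hV a hq)
  have h := Cfsg.Agent.S1969.result (WZ 0) (WZ_char p (Or.inl rfl)) hloc K R T
  rw [inducedFunctor_WZ] at h
  rw [centerThompsonAOf_eq]
  exact h

/-- In a `Qd(p)`-free group (`p` odd), the lower `K`-infinity subgroup controls strong fusion in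
every section. -/
theorem kinf_ctl_of_qd_free {G : Type u} [Group G] [Finite G] {p : ℕ} [Fact p.Prime]
    (hp : p ≠ 2) (hfree : ¬ Cfsg.Involves ↥(Cfsg.qd p) G) (K R : Subgroup G)
    [hR : (R.subgroupOf K).Normal] (T : Sylow p (↥K ⧸ R.subgroupOf K)) :
    Cfsg.ControlsStrongFusion p (Cfsg.inducedFunctor (G := (↥K ⧸ R.subgroupOf K))
      Cfsg.kInfLower (T : Subgroup (↥K ⧸ R.subgroupOf K))) :=
  Cfsg.Agent.S1987.result hp
    (fun K' R' _ => nps_of_qd_free hp (qd_free_section hfree K R) K' R') T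

end QdFun

end Cfsg.Agent.Helper1
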