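import Mathlib
import Cfsg.Agent.Helper1.ThMain3
import Cfsg.Agent.Helper1.FunNpc
import Cfsg.Agent.Helper1.ZJBridge
import Cfsg.Agent.Helper1.S4Sec

set_option autoImplicit false

namespace Cfsg.Agent.Helper1

universe u

open Cfsg Pointwise
open scoped commutatorElement

/-- Thompson's replacement theorem (abelian `B`, all primes). -/
theorem replacement_ab {G : Type*} [Group G] {p : ℕ} [Fact p.Prime] [Finite G]
    (D B A : Subgroup G) [B.Normal] (hD : IsPGroup p D) (hBD : B ≤ D)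
    (hBc : ∀ x ∈ B, ∀ y ∈ B, x * y = y * x)
    (hA : A ∈ maxE 0 D) (hnot : ¬ B ≤ Subgroup.normalizer (A : Set G)) :
    ∃ A' ∈ maxE 0 D, Nat.card ↥(A ⊓ B) < Nat.card ↥(A' ⊓ B) ∧
      A' ≤ Subgroup.normalizer (A : Set G) := by
  obtain ⟨hAD, ⟨hAc, hAe⟩, hAmax⟩ := hA
  obtain ⟨b, hb, hbN, hN1, hN2⟩ := exists_b A B D hD hAD hBD hnot
  have hBA : ⁅B, B⁆ ≤ A := by
    rw [Subgroup.commutator_le]
    intro x hx y hy
    rw [commutatorElement_def, hBc x hx y hy]
    have e : y * x * x⁻¹ * y⁻¹ = 1 := by group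
    rw [e]; exact A.one_mem
  have h : ReplData p A B b := ⟨hAc, hD.to_le hBD, fun _ => hBc, hBA, hb, hN1, hN2⟩
  have hle : replI A b ⊔ replF A b ≤ D :=
    sup_le (fun z hz => hAD (mem_replI.mp hz).1) (h.replF_le.trans hBD)
  refine ⟨replI A b ⊔ replF A b, ⟨hle, ⟨h.star_comm, h.star_pow 0 (Or.inl rfl) hAe⟩,
    fun B' hB' hB'e => (hAmax B' hB' hB'e).trans h.card_le⟩, ?_, h.star_le_normalizer⟩
  obtain ⟨a, ha, hfa⟩ := exists_gen_not_mem A b hbN
  have hle2 : A ⊓ B ≤ (replI A b ⊔ replF A b) ⊓ B :=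
    le_inf (h.inf_le.trans le_sup_left) inf_le_right
  by_contra hcon
  have heq := Subgroup.eq_of_le_of_card_ge hle2 (not_lt.mp hcon)
  have hmem : a * b⁻¹ * a⁻¹ * b ∈ (replI A b ⊔ replF A b) ⊓ B :=
    Subgroup.mem_inf.mpr ⟨Subgroup.mem_sup_right
      (show a * b⁻¹ * a⁻¹ * b ∈ replF A b from Subgroup.subset_closure ⟨a, ha, rfl⟩),
      h.gen_mem a⟩
  rw [← heq] at hmem
  exact hfa (Subgroup.mem_inf.mp hmem).1

/-- The functor `Q ↦ J(Q)` (abelian version). -/
def WJ (Q : Type u) [Group Q] : Subgroup Q := JE 0 (⊤ : Subgroup Q)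

theorem inducedFunctor_WJ {G : Type u} [Group G] (R : Subgroup G) :
    Cfsg.inducedFunctor WJ R = JE 0 R := by
  show (JE 0 (⊤ : Subgroup ↥R)).map R.subtype = JE 0 R
  exact JE_subtype 0 R

theorem WJ_ne_bot (Q : Type u) [Group Q] [Finite Q] (hnt : Nontrivial Q) : WJ Q ≠ ⊥ := by
  haveI := hnt
  obtain ⟨x, hx⟩ := exists_ne (1 : Q)
  obtain ⟨A, hA⟩ := maxE_nonempty 0 (⊤ : Subgroup Q)
  have h1 : IsEAb 0 (Subgroup.zpowers x) := by
    refine ⟨fun a ha b hb => ?_, fun a _ => pow_zero a⟩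
    obtain ⟨i, rfl⟩ := Subgroup.mem_zpowers_iff.mp ha
    obtain ⟨j, rfl⟩ := Subgroup.mem_zpowers_iff.mp hb
    exact ((Commute.refl x).zpow_zpow i j).eq
  have h2 := hA.2.2 _ le_top h1
  intro hbot
  have hAle : A ≤ WJ Q := le_JE hA
  rw [hbot, le_bot_iff] at hAle
  rw [hAle, Subgroup.card_bot] at h2
  have h3 : Subgroup.zpowers x = ⊥ := Subgroup.eq_bot_of_card_le _ h2
  exact hx (Subgroup.zpowers_eq_bot.mp h3)

theorem WJ_char (p : ℕ) [Fact p.Prime] : Cfsg.IsCharPFunctor.{u} p WJ := by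
  refine ⟨fun Q _ _ _ hnt => WJ_ne_bot Q hnt, fun Q R _ _ _ _ φ => ?_⟩
  show (JE 0 (⊤ : Subgroup Q)).map φ.toMonoidHom = JE 0 (⊤ : Subgroup R)
  rw [JE_map, Subgroup.map_top_of_surjective _ φ.surjective]

theorem normalizer_le_normalizer_JE {G : Type*} [Group G] (e : ℕ) (D : Subgroup G) :
    Subgroup.normalizer (D : Set G) ≤ Subgroup.normalizer ((JE e D : Subgroup G) : Set G) := by
  intro g hg
  rw [mem_normalizer_iff_conj_smul, conj_smul_eq_map] at hg ⊢
  rw [JE_map, hg]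

/-- The local hypothesis "`C_G(Z(R))` has a normal `p`-complement". -/
def CenLoc (p : ℕ) : ∀ (G : Type u) [Group G], Subgroup G → Prop :=
  fun G _ R => HasNormalPComplement p
    (Subgroup.centralizer ((R ⊓ Subgroup.centralizer (R : Set G) : Subgroup G) : Set G))

theorem npcLoc_and_cen {p : ℕ} [Fact p.Prime]
    {Loc : ∀ (G : Type u) [Group G], Subgroup G → Prop} (hL : NpcLoc p Loc) :
    NpcLoc p (fun (G : Type u) [Group G] (R : Subgroup G) => Loc G R ∧ CenLoc p G R) where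
  inj := by
    intro G₁ G₂ _ _ _ _ f hf R hR h
    obtain ⟨h1, h2⟩ := h
    refine ⟨hL.inj G₁ G₂ f hf R hR h1, ?_⟩
    have hinj : ∀ x ∈ R, f x = 1 → x = 1 := fun x _ hx => hf (hx.trans (map_one f).symm)
    unfold CenLoc at h2 ⊢
    rw [center_map f R hinj] at h2
    have hmem : ∀ x : ↥(Subgroup.centralizer
          ((R ⊓ Subgroup.centralizer (R : Set G₁) : Subgroup G₁) : Set G₁)),
        (f.comp (Subgroup.subtype _)) x ∈ Subgroup.centralizer
          (((R ⊓ Subgroup.centralizer (R : Set G₁)).map f : Subgroup G₂) : Set G₂) := by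
      intro x
      rw [Subgroup.mem_centralizer_iff]
      rintro _ ⟨z, hz, rfl⟩
      show f z * f x = f x * f z
      rw [← map_mul, ← map_mul, (Subgroup.mem_centralizer_iff.mp x.2) z hz]
    exact npc_of_injective ((f.comp (Subgroup.subtype _)).codRestrict _ hmem)
      (fun a b hab => Subtype.ext (hf (congrArg Subtype.val hab))) h2
  quot := by
    intro G _ _ T _ hT R hR h
    obtain ⟨h1, h2⟩ := h
    refine ⟨hL.quot G T hT R hR h1, ?_⟩
    have hinj : ∀ x ∈ R, QuotientGroup.mk' T x = 1 → x = 1 := fun x hx h1 =>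
      Helper21.eq_one_of_mem_pgroup_of_mem_coprime hR hT hx (mk'_eq_one_iff'.mp h1)
    unfold CenLoc at h2 ⊢
    rw [center_map _ R hinj]
    have hZ : IsPGroup p (R ⊓ Subgroup.centralizer (R : Set G) : Subgroup G) :=
      hR.to_le inf_le_left
    have hmem : ∀ x : ↥(Subgroup.centralizer
          ((R ⊓ Subgroup.centralizer (R : Set G) : Subgroup G) : Set G)),
        ((QuotientGroup.mk' T).comp (Subgroup.subtype _)) x ∈ Subgroup.centralizer
          (((R ⊓ Subgroup.centralizer (R : Set G)).map (QuotientGroup.mk' T)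
            : Subgroup (G ⧸ T)) : Set (G ⧸ T)) := by
      intro x
      rw [Subgroup.mem_centralizer_iff]
      rintro _ ⟨z, hz, rfl⟩
      show QuotientGroup.mk' T z * QuotientGroup.mk' T x
        = QuotientGroup.mk' T x * QuotientGroup.mk' T z
      rw [← map_mul, ← map_mul, (Subgroup.mem_centralizer_iff.mp x.2) z hz]
    refine npc_of_surjective
      (((QuotientGroup.mk' T).comp (Subgroup.subtype _)).codRestrict _ hmem) ?_ h2
    rintro ⟨y, hy⟩
    obtain ⟨g, rfl⟩ := QuotientGroup.mk'_surjective T y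
    obtain ⟨n, hn, hng⟩ := exists_normalizer_of_map T hT _ hZ g
      (Subgroup.centralizer_le_normalizer _ hy)
    have hnc : n ∈ Subgroup.centralizer
        ((R ⊓ Subgroup.centralizer (R : Set G) : Subgroup G) : Set G) := by
      rw [Subgroup.mem_centralizer_iff]
      intro z hz
      have h3 : n * z * n⁻¹ ∈ (R ⊓ Subgroup.centralizer (R : Set G) : Subgroup G) :=
        (Subgroup.mem_normalizer_iff.mp hn z).mp hz
      have h4 : n * z * n⁻¹ * z⁻¹ ∈ (R ⊓ Subgroup.centralizer (R : Set G) : Subgroup G) :=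
        Subgroup.mul_mem _ h3 (Subgroup.inv_mem _ hz)
      have h5 : n * z * n⁻¹ * z⁻¹ ∈ T := by
        apply mk'_eq_one_iff'.mp
        have h6 := (Subgroup.mem_centralizer_iff.mp hy) (QuotientGroup.mk' T z)
          (Subgroup.mem_map_of_mem _ hz)
        rw [map_mul, map_mul, map_mul, map_inv, map_inv, hng, ← h6]
        group
      have h7 := Helper21.eq_one_of_mem_pgroup_of_mem_coprime hZ hT h4 h5
      calc z * n = (n * z * n⁻¹ * z⁻¹)⁻¹ * (n * z) := by group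
        _ = n * z := by rw [h7, inv_one, one_mul]
    exact ⟨⟨n, hnc⟩, Subtype.ext hng⟩
  loc := by
    intro G _ _ R hR hR1 key
    refine ⟨hL.loc G R hR hR1 key, ?_⟩
    have h1 := key _ inf_le_left (center_ne_bot_of_pgroup R hR hR1)
      (normalizer_le_normalizer_center R)
    exact npc_of_le (Subgroup.centralizer_le_normalizer _) h1
  top := by
    intro G _ _ R hR hN h
    exact hL.top G R hR hN h.1

/-- A simultaneous eigenvector for an elementary abelian `2`-group acting on an abelian group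
of odd order. -/
theorem tha_exists_eigen {Γ : Type*} [Group Γ] [Finite Γ] (M : Subgroup Γ) [hMn : M.Normal]
    (hMc : ∀ y ∈ M, ∀ z ∈ M, y * z = z * y) (hM2 : ∀ y ∈ M, y * y = 1 → y = 1)
    (𝔄 : Subgroup Γ) (h𝔄c : ∀ α ∈ 𝔄, ∀ β ∈ 𝔄, α * β = β * α) (h𝔄2 : ∀ α ∈ 𝔄, α * α = 1)
    (α₁ : Γ) (hα₁ : α₁ ∈ 𝔄) (y₀ : Γ) (hy₀ : y₀ ∈ M) (hne : α₁ * y₀ * α₁⁻¹ ≠ y₀) :
    ∃ y ∈ M, y ≠ 1 ∧ α₁ * y * α₁⁻¹ = y⁻¹ ∧
      ∀ α ∈ 𝔄, α * y * α⁻¹ = y ∨ α * y * α⁻¹ = y⁻¹ := by
  classical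
  have key : ∀ s : Finset Γ, (∀ α ∈ s, α ∈ 𝔄) →
      ∃ y ∈ M, y ≠ 1 ∧ α₁ * y * α₁⁻¹ = y⁻¹ ∧
        ∀ α ∈ s, α * y * α⁻¹ = y ∨ α * y * α⁻¹ = y⁻¹ := by
    intro s
    induction s using Finset.induction_on with
    | empty =>
      intro _
      refine ⟨y₀⁻¹ * (α₁ * y₀ * α₁⁻¹), M.mul_mem (M.inv_mem hy₀) (hMn.conj_mem y₀ hy₀ α₁),
        ?_, ?_, ?_⟩
      · intro h
        exact hne (inv_mul_eq_one.mp h).symm
      · have h2 : (α₁ * α₁) * y₀ * (α₁ * α₁)⁻¹ = y₀ := by rw [h𝔄2 α₁ hα₁]; group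
        calc α₁ * (y₀⁻¹ * (α₁ * y₀ * α₁⁻¹)) * α₁⁻¹
            = (α₁ * y₀ * α₁⁻¹)⁻¹ * ((α₁ * α₁) * y₀ * (α₁ * α₁)⁻¹) := by group
          _ = (α₁ * y₀ * α₁⁻¹)⁻¹ * y₀ := by rw [h2]
          _ = (y₀⁻¹ * (α₁ * y₀ * α₁⁻¹))⁻¹ := by group
      · intro α hα; simp at hα
    | insert β s hβ ih =>
      intro hs
      have hβ𝔄 : β ∈ 𝔄 := hs β (Finset.mem_insert_self β s)
      obtain ⟨y, hyM, hy1, hya, hys⟩ := ih (fun α hα => hs α (Finset.mem_insert_of_mem hα))
      obtain ⟨z, hz⟩ : ∃ z, z = β * y * β⁻¹ := ⟨_, rfl⟩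
      have hzM : z ∈ M := by rw [hz]; exact hMn.conj_mem y hyM β
      have hβz : β * z * β⁻¹ = y := by
        rw [hz]
        calc β * (β * y * β⁻¹) * β⁻¹ = (β * β) * y * (β * β)⁻¹ := by group
          _ = y := by rw [h𝔄2 β hβ𝔄]; group
      have hyz : y * z = z * y := hMc y hyM z hzM
      have hzfix : ∀ γ ∈ 𝔄, γ * y * γ⁻¹ = y → γ * z * γ⁻¹ = z := by
        intro γ hγ h
        have hc := h𝔄c γ hγ β hβ𝔄
        rw [hz]
        calc γ * (β * y * β⁻¹) * γ⁻¹ = (γ * β) * y * (γ * β)⁻¹ := by group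
          _ = (β * γ) * y * (β * γ)⁻¹ := by rw [hc]
          _ = β * (γ * y * γ⁻¹) * β⁻¹ := by group
          _ = β * y * β⁻¹ := by rw [h]
      have hzinv : ∀ γ ∈ 𝔄, γ * y * γ⁻¹ = y⁻¹ → γ * z * γ⁻¹ = z⁻¹ := by
        intro γ hγ h
        have hc := h𝔄c γ hγ β hβ𝔄
        rw [hz]
        calc γ * (β * y * β⁻¹) * γ⁻¹ = (γ * β) * y * (γ * β)⁻¹ := by group
          _ = (β * γ) * y * (β * γ)⁻¹ := by rw [hc]
          _ = β * (γ * y * γ⁻¹) * β⁻¹ := by group
          _ = β * y⁻¹ * β⁻¹ := by rw [h]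
          _ = (β * y * β⁻¹)⁻¹ := by group
      have build : ∀ z' : Γ, z' ∈ M → (∀ γ ∈ 𝔄, γ * y * γ⁻¹ = y → γ * z' * γ⁻¹ = z') →
          (∀ γ ∈ 𝔄, γ * y * γ⁻¹ = y⁻¹ → γ * z' * γ⁻¹ = z'⁻¹) →
          (β * (y * z') * β⁻¹ = y * z' ∨ β * (y * z') * β⁻¹ = (y * z')⁻¹) → y * z' ≠ 1 →
          ∃ w ∈ M, w ≠ 1 ∧ α₁ * w * α₁⁻¹ = w⁻¹ ∧
            ∀ α ∈ insert β s, α * w * α⁻¹ = w ∨ α * w * α⁻¹ = w⁻¹ := by
        intro z' hz'M hf hi hβe hne'
        have hc' : y * z' = z' * y := hMc y hyM z' hz'M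
        have fixc : ∀ γ ∈ 𝔄, γ * y * γ⁻¹ = y → γ * (y * z') * γ⁻¹ = y * z' := by
          intro γ hγ h
          calc γ * (y * z') * γ⁻¹ = (γ * y * γ⁻¹) * (γ * z' * γ⁻¹) := by group
            _ = y * z' := by rw [h, hf γ hγ h]
        have invc : ∀ γ ∈ 𝔄, γ * y * γ⁻¹ = y⁻¹ → γ * (y * z') * γ⁻¹ = (y * z')⁻¹ := by
          intro γ hγ h
          calc γ * (y * z') * γ⁻¹ = (γ * y * γ⁻¹) * (γ * z' * γ⁻¹) := by group
            _ = y⁻¹ * z'⁻¹ := by rw [h, hi γ hγ h]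
            _ = (z' * y)⁻¹ := by group
            _ = (y * z')⁻¹ := by rw [hc']
        refine ⟨y * z', M.mul_mem hyM hz'M, hne', invc α₁ hα₁ hya, ?_⟩
        intro α hα
        rcases Finset.mem_insert.mp hα with h | h
        · rw [h]; exact hβe
        · rcases hys α h with h' | h'
          · exact Or.inl (fixc α (hs α (Finset.mem_insert_of_mem h)) h')
          · exact Or.inr (invc α (hs α (Finset.mem_insert_of_mem h)) h')
      by_cases hyz1 : y * z = 1
      · refine build z⁻¹ (M.inv_mem hzM) ?_ ?_ ?_ ?_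
        · intro γ hγ h
          calc γ * z⁻¹ * γ⁻¹ = (γ * z * γ⁻¹)⁻¹ := by group
            _ = z⁻¹ := by rw [hzfix γ hγ h]
        · intro γ hγ h
          calc γ * z⁻¹ * γ⁻¹ = (γ * z * γ⁻¹)⁻¹ := by group
            _ = z⁻¹⁻¹ := by rw [hzinv γ hγ h]
        · right
          calc β * (y * z⁻¹) * β⁻¹ = (β * y * β⁻¹) * (β * z * β⁻¹)⁻¹ := by group
            _ = z * y⁻¹ := by rw [← hz, hβz]
            _ = (y * z⁻¹)⁻¹ := by group
        · intro h
          apply hy1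
          apply hM2 y hyM
          have hz1 : z = y := (mul_inv_eq_one.mp h).symm
          rw [hz1] at hyz1; exact hyz1
      · refine build z hzM hzfix hzinv ?_ hyz1
        left
        calc β * (y * z) * β⁻¹ = (β * y * β⁻¹) * (β * z * β⁻¹) := by group
          _ = z * y := by rw [← hz, hβz]
          _ = y * z := hyz.symm
  obtain ⟨y, hyM, hy1, hya, hys⟩ := key (Set.toFinite (𝔄 : Set Γ)).toFinset
    (fun α hα => (Set.Finite.mem_toFinset _).mp hα)
  exact ⟨y, hyM, hy1, hya, fun α hα => hys α ((Set.Finite.mem_toFinset _).mpr hα)⟩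

/-- A `p`-group `B` commuting with `x` modulo `C(V)` fixes a point of `V` moved by `x`. -/
theorem tha_exists_moved {G : Type*} [Group G] [Finite G] {p : ℕ} [Fact p.Prime]
    (V : Subgroup G) [hVn : V.Normal] (hVc : ∀ u ∈ V, ∀ v ∈ V, u * v = v * u)
    (hVp : ∀ v ∈ V, v ^ p = 1) (B : Subgroup G) (hB : IsPGroup p B) (x : G)
    (hBx : ∀ b ∈ B, b * x * b⁻¹ * x⁻¹ ∈ Subgroup.centralizer (V : Set G))
    (n : ℕ) (hn : n.Coprime p) (hxn : x ^ n ∈ Subgroup.centralizer (V : Set G))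
    (hx : x ∉ Subgroup.centralizer (V : Set G)) :
    ∃ u ∈ V, (∀ b ∈ B, b * u * b⁻¹ = u) ∧ x * u * x⁻¹ ≠ u := by
  by_contra hcon
  have hfix : ∀ u ∈ V, (∀ b ∈ B, b * u * b⁻¹ = u) → x * u * x⁻¹ = u := fun u hu hb => by
    by_contra h; exact hcon ⟨u, hu, hb, h⟩
  have hCc : ∀ c ∈ Subgroup.centralizer (V : Set G), ∀ v ∈ V, c * v * c⁻¹ = v :=
    fun c hc v hv => s4_centralizer_conj_eq hc hv
  obtain ⟨v₀, hv₀V, hv₀⟩ : ∃ v₀ ∈ V, x * v₀ * x⁻¹ ≠ v₀ := by
    by_contra hc2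
    apply hx
    apply s4_mem_centralizer_of_conj
    intro v hv
    by_contra h; exact hc2 ⟨v, hv, h⟩
  have hxV : ∀ v ∈ V, x * v * x⁻¹ ∈ V := fun v hv => hVn.conj_mem v hv x
  let τ : ↥V →* G := MonoidHom.mk' (fun u => x * (u : G) * x⁻¹ * (u : G)⁻¹) (by
    intro u v
    show x * ((u : G) * (v : G)) * x⁻¹ * ((u : G) * (v : G))⁻¹
      = (x * (u : G) * x⁻¹ * (u : G)⁻¹) * (x * (v : G) * x⁻¹ * (v : G)⁻¹)
    have h1 := hVc _ (hxV v v.2) _ (V.inv_mem u.2)
    have h0 : ((u : G) * (v : G))⁻¹ = (u : G)⁻¹ * (v : G)⁻¹ := by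
      rw [mul_inv_rev]; exact hVc _ (V.inv_mem v.2) _ (V.inv_mem u.2)
    calc x * ((u : G) * (v : G)) * x⁻¹ * ((u : G) * (v : G))⁻¹
        = x * ((u : G) * (v : G)) * x⁻¹ * ((u : G)⁻¹ * (v : G)⁻¹) := by rw [h0]
      _ = (x * (u : G) * x⁻¹) * ((x * (v : G) * x⁻¹) * (u : G)⁻¹) * (v : G)⁻¹ := by group
      _ = (x * (u : G) * x⁻¹) * ((u : G)⁻¹ * (x * (v : G) * x⁻¹)) * (v : G)⁻¹ := by rw [h1]
      _ = (x * (u : G) * x⁻¹ * (u : G)⁻¹) * (x * (v : G) * x⁻¹ * (v : G)⁻¹) := by group)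
  obtain ⟨W, hW⟩ : ∃ W : Subgroup G, W = τ.range := ⟨_, rfl⟩
  have hWmem : ∀ w, w ∈ W ↔ ∃ v ∈ V, w = x * v * x⁻¹ * v⁻¹ := by
    intro w; rw [hW, MonoidHom.mem_range]
    constructor
    · rintro ⟨v, rfl⟩; exact ⟨v, v.2, rfl⟩
    · rintro ⟨v, hv, rfl⟩; exact ⟨⟨v, hv⟩, rfl⟩
  have hWV : W ≤ V := by
    intro w hw
    obtain ⟨v, hv, rfl⟩ := (hWmem w).mp hw
    exact V.mul_mem (hxV v hv) (V.inv_mem hv)
  have hWne : W ≠ ⊥ := by
    intro hbot
    have h1 : x * v₀ * x⁻¹ * v₀⁻¹ ∈ W := (hWmem _).mpr ⟨v₀, hv₀V, rfl⟩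
    rw [hbot, Subgroup.mem_bot] at h1
    exact hv₀ (mul_inv_eq_one.mp h1)
  have hBW : B ≤ Subgroup.normalizer (W : Set G) := by
    intro b hb
    apply Subgroup.mem_normalizer_fintype
    intro w hw
    obtain ⟨v, hv, rfl⟩ := (hWmem w).mp hw
    refine (hWmem _).mpr ⟨b * v * b⁻¹, hVn.conj_mem v hv b, ?_⟩
    obtain ⟨h, hh⟩ : ∃ h, h = b * x * b⁻¹ * x⁻¹ := ⟨_, rfl⟩
    have hhC : h ∈ Subgroup.centralizer (V : Set G) := by rw [hh]; exact hBx b hb
    have h1 := hCc h hhC _ (hxV _ (hVn.conj_mem v hv b))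
    calc b * (x * v * x⁻¹ * v⁻¹) * b⁻¹
        = (h * (x * (b * v * b⁻¹) * x⁻¹) * h⁻¹) * (b * v * b⁻¹)⁻¹ := by rw [hh]; group
      _ = x * (b * v * b⁻¹) * x⁻¹ * (b * v * b⁻¹)⁻¹ := by rw [h1]
  have hVpg : IsPGroup p V := fun g => ⟨1, Subtype.ext (by
    show (g : G) ^ p ^ 1 = 1
    rw [pow_one]; exact hVp g g.2)⟩
  obtain ⟨c, hcW, hc1, hcB⟩ :=
    Helper21.exists_fixed_of_pgroup_normalizes W B (hVpg.to_le hWV) hB hBW hWne
  obtain ⟨v, hv, hcv⟩ := (hWmem c).mp hcW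
  have h1 : x * v * x⁻¹ = c * v := by rw [hcv]; group
  have h2 := hfix c (hWV hcW) hcB
  have h3 := s4_conj_pow_of_comm x c v h1 h2 n
  rw [hCc _ hxn v hv] at h3
  have h5 : c ^ n = 1 := by
    have h9 : c ^ n * v = 1 * v := by rw [one_mul]; exact h3.symm
    exact mul_right_cancel h9
  have h7 : c ^ Nat.gcd n p = 1 := pow_gcd_eq_one.mpr ⟨h5, hVp c (hWV hcW)⟩
  have h8 : Nat.gcd n p = 1 := hn
  rw [h8, pow_one] at h7
  exact hc1 h7

/-- The endgame of Thompson's normal `p`-complement theorem for the abelian-version `J`. -/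
theorem ab_endgame {G : Type u} [Group G] [Finite G] {p : ℕ} [Fact p.Prime]
    (hGood : p ≠ 2 ∨ ¬ Cfsg.Involves (Equiv.Perm (Fin 4)) G)
    (hG : ¬ HasNormalPComplement p G) (P : Sylow p G)
    (hPJ : HasNormalPComplement p
      (Subgroup.normalizer ((JE 0 (P : Subgroup G) : Subgroup G) : Set G)))
    (hPZ : HasNormalPComplement p (Subgroup.centralizer
      (((P : Subgroup G) ⊓ Subgroup.centralizer ((P : Subgroup G) : Set G) : Subgroup G)
        : Set G)))
    (H : Subgroup G) [hHn : H.Normal] (hH : IsPGroup p H)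
    (hD2 : ∀ X : Subgroup G, X.Normal → IsPGroup p X → X ≤ H)
    (hCH : Subgroup.centralizer (H : Set G) ≤ H)
    (Mb : Subgroup (G ⧸ H)) [hMbn : Mb.Normal] (hMb : (Nat.card Mb).Coprime p)
    (j₀ : ℕ) (hj₀ : ∀ y : G ⧸ H, y ^ (p ^ j₀) ∈ Mb)
    (h5a : ∀ K₀ : Subgroup G, H ≤ K₀ → K₀ ≤ Mb.comap (QuotientGroup.mk' H) →
      (P : Subgroup G) ≤ Subgroup.normalizer (K₀ : Set G) →
      K₀ ≠ Mb.comap (QuotientGroup.mk' H) → K₀ ≤ H)
    (habel : ∀ k₁ ∈ Mb.comap (QuotientGroup.mk' H), ∀ k₂ ∈ Mb.comap (QuotientGroup.mk' H),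
      k₁ * k₂ * k₁⁻¹ * k₂⁻¹ ∈ H) : False := by
  have hp : p.Prime := Fact.out
  have hHP : H ≤ (P : Subgroup G) := normal_pgroup_le_sylow H hH P
  obtain ⟨K, hK⟩ : ∃ K : Subgroup G, K = Mb.comap (QuotientGroup.mk' H) := ⟨_, rfl⟩
  rw [← hK] at h5a habel
  haveI hKn : K.Normal := by rw [hK]; infer_instance
  have hKmem : ∀ k, k ∈ K ↔ QuotientGroup.mk' H k ∈ Mb := by
    intro k; rw [hK]; exact Subgroup.mem_comap
  have hHK : H ≤ K := by rw [hK]; exact le_comap_mk' H Mb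
  have hKN : ∀ k ∈ K, k ^ Nat.card Mb ∈ H := fun k hk =>
    comap_pow_card_mem H Mb k ((hKmem k).mp hk)
  have hKj : ∀ g : G, g ^ (p ^ j₀) ∈ K := by
    intro g
    rw [hKmem, map_pow]; exact hj₀ _
  have hKP : K ⊔ (P : Subgroup G) = ⊤ := sup_sylow_eq_top K P j₀ hKj
  obtain ⟨V, hV⟩ : ∃ V : Subgroup G, V = omegaCenter p H := ⟨_, rfl⟩
  have hVmem : ∀ x, x ∈ V ↔ x ∈ H ∧ (∀ h ∈ H, h * x = x * h) ∧ x ^ p = 1 := by
    intro x; rw [hV]; exact mem_omegaCenter
  have hVH : V ≤ H := fun x hx => ((hVmem x).mp hx).1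
  haveI hVn : V.Normal := by
    refine ⟨fun x hx g => ?_⟩
    obtain ⟨hxH, hxc, hxp⟩ := (hVmem x).mp hx
    refine (hVmem _).mpr ⟨hHn.conj_mem x hxH g, fun h hh => ?_,
      by rw [conj_pow, hxp, mul_one, mul_inv_cancel]⟩
    have h1 := hxc (g⁻¹ * h * g) (by have h0 := hHn.conj_mem h hh g⁻¹; rwa [inv_inv] at h0)
    calc h * (g * x * g⁻¹) = g * (g⁻¹ * h * g * x) * g⁻¹ := by group
      _ = g * (x * (g⁻¹ * h * g)) * g⁻¹ := by rw [h1]
      _ = g * x * g⁻¹ * h := by group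
  have hVc : ∀ u ∈ V, ∀ v ∈ V, u * v = v * u := by
    intro u hu v hv
    exact ((hVmem v).mp hv).2.1 u (hVH hu)
  have hVp : ∀ v ∈ V, v ^ p = 1 := fun v hv => ((hVmem v).mp hv).2.2
  have hHCV : H ≤ Subgroup.centralizer (V : Set G) := by
    intro h hh
    rw [Subgroup.mem_centralizer_iff]
    intro v hv
    exact (((hVmem v).mp hv).2.1 h hh).symm
  have hCVconj : ∀ c ∈ Subgroup.centralizer (V : Set G), ∀ g : G,
      g * c * g⁻¹ ∈ Subgroup.centralizer (V : Set G) := by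
    intro c hc g
    rw [Subgroup.mem_centralizer_iff] at hc ⊢
    intro v hv
    have h1 := hc (g⁻¹ * v * g) (by have h0 := hVn.conj_mem v hv g⁻¹; rwa [inv_inv] at h0)
    calc v * (g * c * g⁻¹) = g * (g⁻¹ * v * g * c) * g⁻¹ := by group
      _ = g * (c * (g⁻¹ * v * g)) * g⁻¹ := by rw [h1]
      _ = g * c * g⁻¹ * v := by group
  haveI hCVn : (Subgroup.centralizer (V : Set G)).Normal := ⟨fun c hc g => hCVconj c hc g⟩
  obtain ⟨K₁, hK₁⟩ : ∃ K₁ : Subgroup G, K₁ = K ⊓ Subgroup.centralizer (V : Set G) :=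
    ⟨_, rfl⟩
  haveI hK₁n : K₁.Normal := by rw [hK₁]; infer_instance
  have hHK₁ : H ≤ K₁ := by rw [hK₁]; exact le_inf hHK hHCV
  have hK₁K : K₁ ≤ K := by rw [hK₁]; exact inf_le_left
  have hPK₁ : (P : Subgroup G) ≤ Subgroup.normalizer (K₁ : Set G) := by
    rw [Subgroup.normalizer_eq_top_iff.mpr hK₁n]; exact le_top
  have tail : ∀ a ∈ (P : Subgroup G), (∀ k ∈ K, a * k * a⁻¹ * k⁻¹ ∈ H) → a ∈ H := by
    intro a haP hN₀
    obtain ⟨D, hD⟩ : ∃ D : Subgroup G, D = (P : Subgroup G) ⊓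
        (Subgroup.centralizer (Mb : Set (G ⧸ H))).comap (QuotientGroup.mk' H) := ⟨_, rfl⟩
    have hDmem : ∀ x, x ∈ D ↔ x ∈ (P : Subgroup G) ∧ ∀ k ∈ K, x * k * x⁻¹ * k⁻¹ ∈ H := by
      intro x
      rw [hD, Subgroup.mem_inf, Subgroup.mem_comap, Subgroup.mem_centralizer_iff]
      constructor
      · rintro ⟨hxP, hxc⟩
        refine ⟨hxP, fun k hk => ?_⟩
        apply mk'_eq_one_iff'.mp
        have h1 := hxc (QuotientGroup.mk' H k) ((hKmem k).mp hk)
        rw [map_mul, map_mul, map_mul, map_inv, map_inv, ← h1]; group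
      · rintro ⟨hxP, hxc⟩
        refine ⟨hxP, fun y hy => ?_⟩
        obtain ⟨k, rfl⟩ := QuotientGroup.mk'_surjective H y
        have hk : k ∈ K := (hKmem k).mpr hy
        have h1 := mk'_eq_one_iff'.mpr (hxc k hk)
        rw [map_mul, map_mul, map_mul, map_inv, map_inv, mul_inv_eq_one,
          mul_inv_eq_iff_eq_mul] at h1
        exact h1.symm
    have hDP : D ≤ (P : Subgroup G) := by rw [hD]; exact inf_le_left
    have hcomap : ∀ y ∈ D, ∀ g : G, ∀ k ∈ K,
        (g * y * g⁻¹) * k * (g * y * g⁻¹)⁻¹ * k⁻¹ ∈ H := by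
      intro y hy g k hk
      have h1 := ((hDmem y).mp hy).2 (g⁻¹ * k * g)
        (by have h0 := hKn.conj_mem k hk g⁻¹; rwa [inv_inv] at h0)
      have h2 := hHn.conj_mem _ h1 g
      have e : g * (y * (g⁻¹ * k * g) * y⁻¹ * (g⁻¹ * k * g)⁻¹) * g⁻¹
          = (g * y * g⁻¹) * k * (g * y * g⁻¹)⁻¹ * k⁻¹ := by group
      rwa [e] at h2
    have hKconj : ∀ y ∈ D, ∀ m ∈ K, m * y * m⁻¹ ∈ D := by
      intro y hy m hm
      refine (hDmem _).mpr ⟨?_, hcomap y hy m⟩
      have h1 := ((hDmem y).mp hy).2 m hm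
      have h2 : m * y * m⁻¹ = (y * m * y⁻¹ * m⁻¹)⁻¹ * y := by group
      rw [h2]
      exact Subgroup.mul_mem _ (hHP (H.inv_mem h1)) ((hDmem y).mp hy).1
    have hPconj : ∀ y ∈ D, ∀ c ∈ (P : Subgroup G), c * y * c⁻¹ ∈ D := by
      intro y hy c hc
      refine (hDmem _).mpr ⟨?_, hcomap y hy c⟩
      exact Subgroup.mul_mem _ (Subgroup.mul_mem _ hc ((hDmem y).mp hy).1)
        (Subgroup.inv_mem _ hc)
    have hDn : D.Normal := by
      refine ⟨fun x hx g => ?_⟩
      obtain ⟨c, hc, m, hm, hg⟩ := exists_mul_of_sup_eq_top (C := (P : Subgroup G)) (N := K)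
        (by rw [sup_comm]; exact hKP) g
      have h3 := hPconj _ (hKconj x hx m hm) c hc
      have e : g * x * g⁻¹ = c * (m * x * m⁻¹) * c⁻¹ := by rw [hg]; group
      rw [e]; exact h3
    have hDH : D ≤ H := hD2 D hDn (P.isPGroup'.to_le hDP)
    exact hDH ((hDmem a).mpr ⟨haP, hN₀⟩)
  by_cases hcase : K₁ = K
  · -- Case 1: `K` centralises `V`.
    have hKC : K ≤ Subgroup.centralizer (V : Set G) := by
      rw [← hcase, hK₁]; exact inf_le_right
    obtain ⟨ZH, hZH⟩ : ∃ ZH : Subgroup G, ZH = H ⊓ Subgroup.centralizer (H : Set G) :=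
      ⟨_, rfl⟩
    have hZHmem : ∀ z, z ∈ ZH ↔ z ∈ H ∧ ∀ h ∈ H, h * z = z * h := by
      intro z; rw [hZH, Subgroup.mem_inf, Subgroup.mem_centralizer_iff]; rfl
    have hZHconj : ∀ z ∈ ZH, ∀ g : G, g * z * g⁻¹ ∈ ZH := by
      intro z hz g
      obtain ⟨hzH, hzc⟩ := (hZHmem z).mp hz
      refine (hZHmem _).mpr ⟨hHn.conj_mem z hzH g, fun h hh => ?_⟩
      have h1 := hzc (g⁻¹ * h * g) (by have h0 := hHn.conj_mem h hh g⁻¹; rwa [inv_inv] at h0)
      calc h * (g * z * g⁻¹) = g * (g⁻¹ * h * g * z) * g⁻¹ := by group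
        _ = g * (z * (g⁻¹ * h * g)) * g⁻¹ := by rw [h1]
        _ = g * z * g⁻¹ * h := by group
    have hKZ : ∀ k ∈ K, ∀ z ∈ ZH, k * z * k⁻¹ = z := by
      intro k hk z hz
      obtain ⟨j, hj⟩ := hH ⟨z, ((hZHmem z).mp hz).1⟩
      have hj' : z ^ (p ^ j) = 1 := congrArg Subtype.val hj
      refine centralizes_of_centralizes_omega p ZH ?_ k (fun a ha => hZHconj a ha k) ?_
        (Nat.card Mb) hMb ?_ j z hz hj'
      · intro a ha b hb
        exact ((hZHmem b).mp hb).2 a ((hZHmem a).mp ha).1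
      · intro a ha hap
        have haV : a ∈ V := (hVmem a).mpr ⟨((hZHmem a).mp ha).1, ((hZHmem a).mp ha).2, hap⟩
        have h1 := (Subgroup.mem_centralizer_iff.mp (hKC hk)) a haV
        rw [← h1]; group
      · intro a ha
        have h1 := ((hZHmem a).mp ha).2 (k ^ Nat.card Mb) (hKN k hk)
        rw [h1]; group
    have hZPZH : ∀ z ∈ ((P : Subgroup G) ⊓ Subgroup.centralizer ((P : Subgroup G) : Set G)
        : Subgroup G), z ∈ ZH := by
      intro z hz
      obtain ⟨hzP, hzc⟩ := Subgroup.mem_inf.mp hz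
      have hzCH : z ∈ Subgroup.centralizer (H : Set G) := by
        rw [Subgroup.mem_centralizer_iff] at hzc ⊢
        exact fun h hh => hzc h (hHP hh)
      exact (hZHmem z).mpr ⟨hCH hzCH, Subgroup.mem_centralizer_iff.mp hzCH⟩
    have htop : Subgroup.centralizer (((P : Subgroup G) ⊓
        Subgroup.centralizer ((P : Subgroup G) : Set G) : Subgroup G) : Set G) = ⊤ := by
      rw [eq_top_iff, ← hKP]
      apply sup_le
      · intro k hk
        rw [Subgroup.mem_centralizer_iff]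
        intro z hz
        have h1 := hKZ k hk z (hZPZH z hz)
        calc z * k = k * z * k⁻¹ * k := by rw [h1]
          _ = k * z := by group
      · intro x hx
        rw [Subgroup.mem_centralizer_iff]
        intro z hz
        exact ((Subgroup.mem_centralizer_iff.mp (Subgroup.mem_inf.mp hz).2) x hx).symm
    exact hG (npc_of_eq_top _ htop hPZ)
  · -- Case 2: `C_K(V) = H`.
    have hK₁H : K₁ ≤ H := h5a K₁ hHK₁ hK₁K hPK₁ hcase
    have hCVH : Subgroup.centralizer (V : Set G) ≤ H := by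
      apply hD2 _ hCVn
      intro x
      have h1 : (x : G) ^ (p ^ j₀) ∈ K₁ := by
        rw [hK₁]; exact Subgroup.mem_inf.mpr ⟨hKj _, Subgroup.pow_mem _ x.2 _⟩
      obtain ⟨a, ha⟩ := hH ⟨_, hK₁H h1⟩
      have ha' : ((x : G) ^ (p ^ j₀)) ^ (p ^ a) = 1 := congrArg Subtype.val ha
      refine ⟨j₀ + a, Subtype.ext ?_⟩
      show (x : G) ^ (p ^ (j₀ + a)) = 1
      rw [pow_add, pow_mul]; exact ha'
    have hJ : ¬ JE 0 (P : Subgroup G) ≤ H := by
      intro hJH
      obtain ⟨A₀, hA₀⟩ := maxE_nonempty 0 (P : Subgroup G)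
      have hmax : maxE 0 H = maxE 0 (P : Subgroup G) := by
        ext A
        rw [maxE_sub_iff hHP hA₀ ((le_JE hA₀).trans hJH) A]
        exact ⟨fun h => h.1, fun h => ⟨h, (le_JE h).trans hJH⟩⟩
      have h1 : JE 0 H = JE 0 (P : Subgroup G) := by unfold JE; rw [hmax]
      have h2 : Subgroup.normalizer ((JE 0 (P : Subgroup G) : Subgroup G) : Set G) = ⊤ := by
        rw [eq_top_iff, ← h1, ← Subgroup.normalizer_eq_top_iff.mpr hHn]
        exact normalizer_le_normalizer_JE 0 H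
      exact hG (npc_of_eq_top _ h2 hPJ)
    have hex : ∃ A, A ∈ maxE 0 (P : Subgroup G) ∧ ¬ A ≤ H := by
      by_contra hcon
      apply hJ
      apply sSup_le
      intro A hA
      by_contra hAH
      exact hcon ⟨A, hA, hAH⟩
    obtain ⟨A, ⟨hA, hAH⟩, hAbest⟩ := Set.exists_max_image
      {A : Subgroup G | A ∈ maxE 0 (P : Subgroup G) ∧ ¬ A ≤ H}
      (fun A => Nat.card ↥(A ⊓ V)) (Set.toFinite _) hex
    obtain ⟨hAP, ⟨hAc, hAe⟩, hAmax⟩ := hA
    have hA' : A ∈ maxE 0 (P : Subgroup G) := ⟨hAP, ⟨hAc, hAe⟩, hAmax⟩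
    have hVNA : V ≤ Subgroup.normalizer (A : Set G) := by
      by_contra hnot
      obtain ⟨A', hA'max, hlt, hA'N⟩ := replacement_ab (P : Subgroup G) V A P.isPGroup'
        (hVH.trans hHP) hVc hA' hnot
      have hA'H : A' ≤ H := by
        by_contra hA'H
        exact absurd (hAbest A' ⟨hA'max, hA'H⟩) (not_le.mpr hlt)
      have hVA' : V ≤ A' := by
        have hE : IsEAb 0 (A' ⊔ V) := by
          refine ⟨?_, fun a _ => pow_zero a⟩
          have hS : A' ⊔ V = Subgroup.closure ((A' : Set G) ∪ (V : Set G)) := by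
            rw [Subgroup.closure_union, Subgroup.closure_eq, Subgroup.closure_eq]
          rw [hS]
          apply closure_comm
          rintro s (hs | hs) t (ht | ht)
          · exact hA'max.2.1.1 s hs t ht
          · exact ((Subgroup.mem_centralizer_iff.mp (hHCV (hA'H hs))) t ht).symm
          · exact (Subgroup.mem_centralizer_iff.mp (hHCV (hA'H ht))) s hs
          · exact hVc s hs t ht
        have h3 := hA'max.2.2 _ (sup_le hA'max.1 (hVH.trans hHP)) hE
        have h4 : A' = A' ⊔ V := Subgroup.eq_of_le_of_card_ge le_sup_left h3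
        rw [h4]; exact le_sup_right
      exact hnot (hVA'.trans hA'N)
    have hcomA : ∀ a ∈ A, ∀ v ∈ V, a * v * a⁻¹ * v⁻¹ ∈ A := by
      intro a ha v hv
      have h1 : v * a⁻¹ * v⁻¹ ∈ A :=
        (Subgroup.mem_normalizer_iff.mp (hVNA hv) a⁻¹).mp (A.inv_mem ha)
      have h2 : a * v * a⁻¹ * v⁻¹ = a * (v * a⁻¹ * v⁻¹) := by group
      rw [h2]; exact A.mul_mem ha h1
    have hq : ∀ a ∈ A, ∀ v ∈ V, a * (a * v * a⁻¹ * v⁻¹) * a⁻¹ = a * v * a⁻¹ * v⁻¹ := by
      intro a ha v hv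
      have h1 := hAc a ha _ (hcomA a ha v hv)
      rw [h1, mul_inv_cancel_right]
    obtain ⟨a₁, ha₁A, ha₁H⟩ : ∃ a₁ ∈ A, a₁ ∉ H := by
      by_contra hcon
      exact hAH (fun x hx => by by_contra h; exact hcon ⟨x, hx, h⟩)
    by_cases hp2 : p = 2
    swap
    · -- `p` odd
      apply ha₁H
      apply tail a₁ (hAP ha₁A)
      intro k hk
      have hk1 : a₁ * k * a₁⁻¹ ∈ K := hKn.conj_mem k hk a₁
      have hk2 : a₁ * (a₁ * k * a₁⁻¹) * a₁⁻¹ ∈ K := hKn.conj_mem _ hk1 a₁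
      have h1 := group_quadratic V hVc p hp hp2 hVp a₁ k (hq a₁ ha₁A) (Nat.card Mb) hMb
        (hHCV (hKN k hk)) (hHCV (habel k hk _ hk1)) (hHCV (habel k hk _ hk2))
        (hHCV (habel _ hk1 _ hk2))
      exact hCVH h1
    · -- `p = 2`
      have hS4 : ¬ Cfsg.Involves (Equiv.Perm (Fin 4)) G := hGood.resolve_left (fun h => h hp2)
      apply hS4
      have hV2 : ∀ v ∈ V, v * v = 1 := fun v hv => by
        have h := hVp v hv; rw [hp2, pow_two] at h; exact h
      have hodd : Odd (Nat.card Mb) := by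
        have h := hMb; rw [hp2] at h; exact h.odd_of_right
      have hHc : ∀ h ∈ H, ∀ v ∈ V, h * v * h⁻¹ = v := fun h hh v hv =>
        s4_centralizer_conj_eq (hHCV hh) hv
      have hA2 : ∀ a ∈ A, a * a ∈ H := by
        intro a ha
        apply hCVH
        apply s4_mem_centralizer_of_conj
        intro v hv
        obtain ⟨c, hc⟩ : ∃ c, c = a * v * a⁻¹ * v⁻¹ := ⟨_, rfl⟩
        have hcV : c ∈ V := by
          rw [hc]; exact V.mul_mem (hVn.conj_mem v hv a) (V.inv_mem hv)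
        have h1 : a * c * a⁻¹ = c := by rw [hc]; exact hq a ha v hv
        have h2 : a * v * a⁻¹ = c * v := by rw [hc]; group
        calc a * a * v * (a * a)⁻¹ = a * (a * v * a⁻¹) * a⁻¹ := by group
          _ = a * (c * v) * a⁻¹ := by rw [h2]
          _ = (a * c * a⁻¹) * (a * v * a⁻¹) := by group
          _ = c * (c * v) := by rw [h1, h2]
          _ = (c * c) * v := by group
          _ = v := by rw [hV2 c hcV, one_mul]
      obtain ⟨π, hπ⟩ : ∃ π : G →* G ⧸ H, π = QuotientGroup.mk' H := ⟨_, rfl⟩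
      have hπ1 : ∀ g : G, π g = 1 ↔ g ∈ H := fun g => by rw [hπ]; exact mk'_eq_one_iff'
      have hπK : ∀ k, k ∈ K ↔ π k ∈ Mb := fun k => by rw [hπ]; exact hKmem k
      have hπsurj : ∀ y : G ⧸ H, ∃ g, π g = y := fun y => by
        rw [hπ]; exact QuotientGroup.mk'_surjective H y
      have hMbc : ∀ y ∈ Mb, ∀ z ∈ Mb, y * z = z * y := by
        intro y hy z hz
        obtain ⟨k₁, rfl⟩ := hπsurj y
        obtain ⟨k₂, rfl⟩ := hπsurj z
        have h1 := (hπ1 _).mpr (habel k₁ ((hπK k₁).mpr hy) k₂ ((hπK k₂).mpr hz))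
        rw [map_mul, map_mul, map_mul, map_inv, map_inv] at h1
        calc π k₁ * π k₂ = (π k₁ * π k₂ * (π k₁)⁻¹ * (π k₂)⁻¹) * (π k₂ * π k₁) := by group
          _ = π k₂ * π k₁ := by rw [h1, one_mul]
      have hMb2 : ∀ y ∈ Mb, y * y = 1 → y = 1 := by
        intro y hy hyy
        have h1 : y ^ Nat.card Mb = 1 := by
          have h2 : (⟨y, hy⟩ : Mb) ^ Nat.card Mb = 1 := pow_card_eq_one'
          exact congrArg Subtype.val h2
        have h3 : y ^ 2 = 1 := by rw [pow_two]; exact hyy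
        have h4 : y ^ Nat.gcd (Nat.card Mb) 2 = 1 := pow_gcd_eq_one.mpr ⟨h1, h3⟩
        have h8 : Nat.gcd (Nat.card Mb) 2 = 1 := hodd.coprime_two_right
        rw [h8, pow_one] at h4
        exact h4
      obtain ⟨k₀, hk₀K, hk₀⟩ : ∃ k ∈ K, a₁ * k * a₁⁻¹ * k⁻¹ ∉ H := by
        by_contra hcon
        apply ha₁H
        apply tail a₁ (hAP ha₁A)
        intro k hk
        by_contra h
        exact hcon ⟨k, hk, h⟩
      have h𝔄2 : ∀ β ∈ A.map π, β * β = 1 := by
        rintro _ ⟨b, hb, rfl⟩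
        rw [← map_mul]; exact (hπ1 _).mpr (hA2 b hb)
      have h𝔄c : ∀ β ∈ A.map π, ∀ γ ∈ A.map π, β * γ = γ * β := by
        rintro _ ⟨b, hb, rfl⟩ _ ⟨c, hc, rfl⟩
        rw [← map_mul, ← map_mul, hAc b hb c hc]
      have hne₀ : π a₁ * π k₀ * (π a₁)⁻¹ ≠ π k₀ := by
        intro h
        apply hk₀
        apply (hπ1 _).mp
        rw [map_mul, map_mul, map_mul, map_inv, map_inv, h, mul_inv_cancel]
      obtain ⟨y, hyMb, hy1, hya₁, hyA⟩ := tha_exists_eigen Mb hMbc hMb2 (A.map π) h𝔄c h𝔄2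
        (π a₁) (Subgroup.mem_map_of_mem π ha₁A) (π k₀) ((hπK k₀).mp hk₀K) hne₀
      obtain ⟨x, rfl⟩ := hπsurj y
      have hxK : x ∈ K := (hπK x).mpr hyMb
      have hxH : x ∉ H := fun h => hy1 ((hπ1 x).mpr h)
      have hfixH : ∀ a : G, π a * π x * (π a)⁻¹ = π x → a * x * a⁻¹ * x⁻¹ ∈ H := by
        intro a h
        apply (hπ1 _).mp
        rw [map_mul, map_mul, map_mul, map_inv, map_inv, h, mul_inv_cancel]
      have hinvH : ∀ a : G, π a * π x * (π a)⁻¹ = (π x)⁻¹ → a * x * a⁻¹ * x ∈ H := by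
        intro a h
        apply (hπ1 _).mp
        rw [map_mul, map_mul, map_mul, map_inv, h, inv_mul_cancel]
      have ha₁x : a₁ * x * a₁⁻¹ * x ∈ H := hinvH a₁ hya₁
      obtain ⟨B, hB⟩ : ∃ B : Subgroup G,
          B = A ⊓ (Subgroup.centralizer ({π x} : Set (G ⧸ H))).comap π := ⟨_, rfl⟩
      have hBmem : ∀ b, b ∈ B ↔ b ∈ A ∧ π b * π x * (π b)⁻¹ = π x := by
        intro b
        rw [hB, Subgroup.mem_inf, Subgroup.mem_comap, Subgroup.mem_centralizer_iff]
        constructor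
        · rintro ⟨hbA, hbc⟩
          refine ⟨hbA, ?_⟩
          rw [← hbc (π x) rfl, mul_inv_cancel_right]
        · rintro ⟨hbA, hbc⟩
          refine ⟨hbA, fun h hh => ?_⟩
          rw [Set.mem_singleton_iff] at hh
          rw [hh]
          exact (mul_inv_eq_iff_eq_mul.mp hbc).symm
      have hBA : B ≤ A := fun b hb => ((hBmem b).mp hb).1
      have ha₁B : a₁ ∉ B := by
        intro h
        have h1 := ((hBmem a₁).mp h).2
        rw [hya₁] at h1
        apply hy1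
        apply hMb2 _ hyMb
        calc π x * π x = (π x)⁻¹ * π x := by rw [h1]
          _ = 1 := inv_mul_cancel _
      have hrel : B.relIndex A = 2 := by
        rw [Subgroup.relIndex_eq_two_iff]
        refine ⟨a₁, ha₁A, fun b hb => ?_⟩
        by_cases hbB : b ∈ B
        · refine Or.inr ⟨hbB, fun h => ?_⟩
          apply ha₁B
          have e : a₁ = b⁻¹ * (b * a₁) := by group
          rw [e]; exact B.mul_mem (B.inv_mem hbB) h
        · refine Or.inl ⟨?_, hbB⟩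
          have hbinv : π b * π x * (π b)⁻¹ = (π x)⁻¹ := by
            rcases hyA (π b) (Subgroup.mem_map_of_mem π hb) with h | h
            · exact absurd ((hBmem b).mpr ⟨hb, h⟩) hbB
            · exact h
          refine (hBmem _).mpr ⟨A.mul_mem hb ha₁A, ?_⟩
          rw [map_mul]
          calc π b * π a₁ * π x * (π b * π a₁)⁻¹
              = π b * (π a₁ * π x * (π a₁)⁻¹) * (π b)⁻¹ := by group
            _ = π b * (π x)⁻¹ * (π b)⁻¹ := by rw [hya₁]
            _ = (π b * π x * (π b)⁻¹)⁻¹ := by group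
            _ = π x := by rw [hbinv, inv_inv]
      have hcardA : Nat.card A = Nat.card B * 2 := by
        have h1 := Subgroup.relIndex_mul_relIndex ⊥ B A bot_le hBA
        rw [Subgroup.relIndex_bot_left, Subgroup.relIndex_bot_left, hrel] at h1
        exact h1.symm
      obtain ⟨U, hU⟩ : ∃ U : Subgroup G, U = V ⊓ Subgroup.centralizer (B : Set G) := ⟨_, rfl⟩
      obtain ⟨U₁, hU₁⟩ : ∃ U₁ : Subgroup G, U₁ = V ⊓ Subgroup.centralizer (A : Set G) :=
        ⟨_, rfl⟩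
      have hUmem : ∀ u, u ∈ U ↔ u ∈ V ∧ ∀ b ∈ B, b * u * b⁻¹ = u := by
        intro u
        rw [hU, Subgroup.mem_inf]
        constructor
        · rintro ⟨h1, h2⟩
          exact ⟨h1, fun b hb => by
            rw [(Subgroup.mem_centralizer_iff.mp h2) b hb, mul_inv_cancel_right]⟩
        · rintro ⟨h1, h2⟩
          exact ⟨h1, Subgroup.mem_centralizer_iff.mpr
            (fun b hb => mul_inv_eq_iff_eq_mul.mp (h2 b hb))⟩
      have hU₁mem : ∀ u, u ∈ U₁ ↔ u ∈ V ∧ ∀ a ∈ A, a * u * a⁻¹ = u := by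
        intro u
        rw [hU₁, Subgroup.mem_inf]
        constructor
        · rintro ⟨h1, h2⟩
          exact ⟨h1, fun b hb => by
            rw [(Subgroup.mem_centralizer_iff.mp h2) b hb, mul_inv_cancel_right]⟩
        · rintro ⟨h1, h2⟩
          exact ⟨h1, Subgroup.mem_centralizer_iff.mpr
            (fun b hb => mul_inv_eq_iff_eq_mul.mp (h2 b hb))⟩
      have hU₁U : U₁ ≤ U := fun u hu =>
        (hUmem u).mpr ⟨((hU₁mem u).mp hu).1, fun b hb => ((hU₁mem u).mp hu).2 b (hBA hb)⟩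
      have hUV : U ≤ V := by rw [hU]; exact inf_le_left
      have hoff : Nat.card U ≤ 2 * Nat.card U₁ := by
        obtain ⟨E, hE⟩ : ∃ E : Subgroup G, E = B ⊔ U := ⟨_, rfl⟩
        have hEab : IsEAb 0 E := by
          refine ⟨?_, fun a _ => pow_zero a⟩
          have hS : E = Subgroup.closure ((B : Set G) ∪ (U : Set G)) := by
            rw [hE, Subgroup.closure_union, Subgroup.closure_eq, Subgroup.closure_eq]
          rw [hS]
          apply closure_comm
          rintro s (hs | hs) t (ht | ht)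
          · exact hAc s (hBA hs) t (hBA ht)
          · exact mul_inv_eq_iff_eq_mul.mp (((hUmem t).mp ht).2 s hs)
          · exact (mul_inv_eq_iff_eq_mul.mp (((hUmem s).mp hs).2 t ht)).symm
          · exact hVc s (hUV hs) t (hUV ht)
        have hEP : E ≤ (P : Subgroup G) := by
          rw [hE]; exact sup_le (hBA.trans hAP) (hUV.trans (hVH.trans hHP))
        have hEA : Nat.card E ≤ Nat.card A := hAmax E hEP hEab
        have hBE : B ≤ E := by rw [hE]; exact le_sup_left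
        have hUE : U ≤ E := by rw [hE]; exact le_sup_right
        have k1 : Nat.card (B ⊓ U : Subgroup G) * (B ⊓ U).relIndex U = Nat.card U := by
          have h1 := Subgroup.relIndex_mul_relIndex ⊥ (B ⊓ U) U bot_le inf_le_right
          rwa [Subgroup.relIndex_bot_left, Subgroup.relIndex_bot_left] at h1
        have k2 : Nat.card B * B.relIndex E = Nat.card E := by
          have h1 := Subgroup.relIndex_mul_relIndex ⊥ B E bot_le hBE
          rwa [Subgroup.relIndex_bot_left, Subgroup.relIndex_bot_left] at h1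
        have k3 : (B ⊓ U).relIndex U ≤ B.relIndex E := by
          rw [Subgroup.inf_relIndex_right]
          have hne0 : (B.subgroupOf E).index ≠ 0 := Subgroup.index_ne_zero_of_finite
          exact Subgroup.relIndex_le_of_le_right hUE hne0
        have k4 : Nat.card (B ⊓ U : Subgroup G) ≤ Nat.card U₁ := by
          apply Subgroup.card_le_of_le
          intro u hu
          obtain ⟨huB, huU⟩ := Subgroup.mem_inf.mp hu
          refine (hU₁mem u).mpr ⟨hUV huU, fun a ha => ?_⟩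
          rw [hAc a ha u (hBA huB), mul_inv_cancel_right]
        have hBpos : 0 < Nat.card B := Nat.card_pos
        have k5 : Nat.card U * Nat.card B ≤ (2 * Nat.card U₁) * Nat.card B := by
          calc Nat.card U * Nat.card B
              = Nat.card (B ⊓ U : Subgroup G) * ((B ⊓ U).relIndex U * Nat.card B) := by
                rw [← k1]; ring
            _ ≤ Nat.card (B ⊓ U : Subgroup G) * (B.relIndex E * Nat.card B) :=
                Nat.mul_le_mul_left _ (Nat.mul_le_mul_right _ k3)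
            _ = Nat.card (B ⊓ U : Subgroup G) * Nat.card E := by rw [← k2]; ring
            _ ≤ Nat.card U₁ * Nat.card A := Nat.mul_le_mul k4 hEA
            _ = (2 * Nat.card U₁) * Nat.card B := by rw [hcardA]; ring
        exact Nat.le_of_mul_le_mul_right k5 hBpos
      have hBx : ∀ b ∈ B, b * x * b⁻¹ * x⁻¹ ∈ H := fun b hb =>
        hfixH b ((hBmem b).mp hb).2
      have hxNU : x ∈ Subgroup.normalizer (U : Set G) := by
        apply Subgroup.mem_normalizer_fintype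
        intro u hu
        obtain ⟨huV, huB⟩ := (hUmem u).mp hu
        have hxV : x * u * x⁻¹ ∈ V := hVn.conj_mem u huV x
        refine (hUmem _).mpr ⟨hxV, fun b hb => ?_⟩
        obtain ⟨h, hh⟩ : ∃ h, h = b * x * b⁻¹ * x⁻¹ := ⟨_, rfl⟩
        have hhH : h ∈ H := by rw [hh]; exact hBx b hb
        calc b * (x * u * x⁻¹) * b⁻¹ = h * (x * (b * u * b⁻¹) * x⁻¹) * h⁻¹ := by
              rw [hh]; group
          _ = h * (x * u * x⁻¹) * h⁻¹ := by rw [huB b hb]
          _ = x * u * x⁻¹ := hHc h hhH _ hxV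
      have ha₁NU : a₁ ∈ Subgroup.normalizer (U : Set G) := by
        apply Subgroup.mem_normalizer_fintype
        intro u hu
        obtain ⟨huV, huB⟩ := (hUmem u).mp hu
        refine (hUmem _).mpr ⟨hVn.conj_mem u huV a₁, fun b hb => ?_⟩
        have h1 := hAc b (hBA hb) a₁ ha₁A
        calc b * (a₁ * u * a₁⁻¹) * b⁻¹ = (b * a₁) * u * (b * a₁)⁻¹ := by group
          _ = (a₁ * b) * u * (a₁ * b)⁻¹ := by rw [h1]
          _ = a₁ * (b * u * b⁻¹) * a₁⁻¹ := by group
          _ = a₁ * u * a₁⁻¹ := by rw [huB b hb]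
      obtain ⟨U₂, hU₂⟩ : ∃ U₂ : Subgroup G, U₂ = replI U₁ x := ⟨_, rfl⟩
      have hU₂mem : ∀ u, u ∈ U₂ ↔ u ∈ U₁ ∧ x * u * x⁻¹ ∈ U₁ := fun u => by
        rw [hU₂]; exact mem_replI
      have hU₂U : U₂ ≤ U := fun u hu => hU₁U ((hU₂mem u).mp hu).1
      have hxU₂ : ∀ u ∈ U₂, x * u * x⁻¹ = u := by
        intro u hu
        obtain ⟨hu1, hu2⟩ := (hU₂mem u).mp hu
        obtain ⟨huV, huA⟩ := (hU₁mem u).mp hu1
        obtain ⟨hxuV, hxuA⟩ := (hU₁mem _).mp hu2
        obtain ⟨h', hh'⟩ : ∃ h', h' = a₁ * x * a₁⁻¹ * x := ⟨_, rfl⟩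
        have hh'H : h' ∈ H := by rw [hh']; exact ha₁x
        have hxinvV : x⁻¹ * u * x ∈ V := by
          have h0 := hVn.conj_mem u huV x⁻¹; rwa [inv_inv] at h0
        have h1 : x * u * x⁻¹ = x⁻¹ * u * x := by
          calc x * u * x⁻¹ = a₁ * (x * u * x⁻¹) * a₁⁻¹ := (hxuA a₁ ha₁A).symm
            _ = h' * (x⁻¹ * (a₁ * u * a₁⁻¹) * x) * h'⁻¹ := by rw [hh']; group
            _ = h' * (x⁻¹ * u * x) * h'⁻¹ := by rw [huA a₁ ha₁A]
            _ = x⁻¹ * u * x := hHc h' hh'H _ hxinvV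
        have h2 : (x * x) * u * (x * x)⁻¹ = u := by
          calc (x * x) * u * (x * x)⁻¹ = x * (x * u * x⁻¹) * x⁻¹ := by group
            _ = x * (x⁻¹ * u * x) * x⁻¹ := by rw [h1]
            _ = u := by group
        have h3 : x ^ 2 ∈ Subgroup.centralizer ({u} : Set G) := by
          rw [pow_two, Subgroup.mem_centralizer_iff]
          intro z hz
          rw [Set.mem_singleton_iff] at hz
          rw [hz]
          exact (mul_inv_eq_iff_eq_mul.mp h2).symm
        have h4 : x ^ Nat.card Mb ∈ Subgroup.centralizer ({u} : Set G) := by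
          rw [Subgroup.mem_centralizer_iff]
          intro z hz
          rw [Set.mem_singleton_iff] at hz
          rw [hz]
          exact (mul_inv_eq_iff_eq_mul.mp (hHc _ (hKN x hxK) u huV)).symm
        have h5 := mem_of_pow_mem_coprime _ x 2 (Nat.card Mb) hodd.coprime_two_left h3 h4
        have h6 := (Subgroup.mem_centralizer_iff.mp h5) u rfl
        rw [← h6, mul_inv_cancel_right]
      have hcard4 : Nat.card U ≤ 4 * Nat.card U₂ := by
        obtain ⟨X, hX⟩ : ∃ X : Subgroup G, X = U₁.map (MulAut.conj x⁻¹).toMonoidHom :=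
          ⟨_, rfl⟩
        have hXU : X ≤ U := by
          rw [hX]
          rintro _ ⟨u, hu, rfl⟩
          have h1 := (Subgroup.mem_normalizer_iff.mp (Subgroup.inv_mem _ hxNU) u).mp (hU₁U hu)
          exact h1
        have hXcard : Nat.card X = Nat.card U₁ := by
          rw [hX]; exact Subgroup.card_map_of_injective (MulAut.conj x⁻¹).injective
        have hU₂eq : U₂ = U₁ ⊓ X := by rw [hU₂, hX]; rfl
        have c1 : Nat.card U₁ * U₁.relIndex U = Nat.card U := by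
          have h1 := Subgroup.relIndex_mul_relIndex ⊥ U₁ U bot_le hU₁U
          rwa [Subgroup.relIndex_bot_left, Subgroup.relIndex_bot_left] at h1
        have c2 : Nat.card X * X.relIndex U = Nat.card U := by
          have h1 := Subgroup.relIndex_mul_relIndex ⊥ X U bot_le hXU
          rwa [Subgroup.relIndex_bot_left, Subgroup.relIndex_bot_left] at h1
        have c3 : Nat.card U₂ * U₂.relIndex U = Nat.card U := by
          have h1 := Subgroup.relIndex_mul_relIndex ⊥ U₂ U bot_le hU₂U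
          rwa [Subgroup.relIndex_bot_left, Subgroup.relIndex_bot_left] at h1
        have hU₁pos : 0 < Nat.card U₁ := Nat.card_pos
        have d1 : U₁.relIndex U ≤ 2 := by
          have h1 : Nat.card U₁ * U₁.relIndex U ≤ Nat.card U₁ * 2 := by
            rw [c1, mul_comm]; exact hoff
          exact Nat.le_of_mul_le_mul_left h1 hU₁pos
        have d2 : X.relIndex U ≤ 2 := by
          have h1 : Nat.card X * X.relIndex U ≤ Nat.card X * 2 := by
            rw [c2, hXcard, mul_comm]; exact hoff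
          rw [hXcard] at h1
          exact Nat.le_of_mul_le_mul_left h1 hU₁pos
        have d3 : U₂.relIndex U ≤ 4 := by
          rw [hU₂eq]
          calc (U₁ ⊓ X).relIndex U ≤ U₁.relIndex U * X.relIndex U := Subgroup.relIndex_inf_le
            _ ≤ 2 * 2 := Nat.mul_le_mul d1 d2
        rw [← c3, mul_comm]
        exact Nat.mul_le_mul_right _ d3
      have hBxC : ∀ b ∈ B, b * x * b⁻¹ * x⁻¹ ∈ Subgroup.centralizer (V : Set G) :=
        fun b hb => hHCV (hBx b hb)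
      obtain ⟨u₀, hu₀V, hu₀B, hxu₀⟩ := tha_exists_moved V hVc hVp B
        (P.isPGroup'.to_le (hBA.trans hAP)) x hBxC (Nat.card Mb) hMb (hHCV (hKN x hxK))
        (fun h => hxH (hCVH h))
      have hu₀U : u₀ ∈ U := (hUmem u₀).mpr ⟨hu₀V, hu₀B⟩
      have hHCU : ∀ h ∈ H, h ∈ Subgroup.centralizer (U : Set G) := fun h hh =>
        Subgroup.centralizer_le (show (U : Set G) ⊆ (V : Set G) from hUV) (hHCV hh)
      exact s4_of_module U U₂ hU₂U (fun u hu => hV2 u (hUV hu)) hcard4 x a₁ hxNU ha₁NU hxU₂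
        (Nat.card Mb) hodd (hHCU _ (hKN x hxK)) (hHCU _ ha₁x) (hHCU _ (hA2 a₁ ha₁A))
        u₀ hu₀U hxu₀

/-- **Thompson's normal `p`-complement theorem** for the abelian-version Thompson subgroup:
`p` odd, or `S₄` not involved. -/
theorem thompson_npc_ab {G : Type u} [Group G] [Finite G] {p : ℕ} [Fact p.Prime]
    (P : Sylow p G) (hgood : p ≠ 2 ∨ ¬ Cfsg.Involves (Equiv.Perm (Fin 4)) G)
    (hZ : HasNormalPComplement p (Subgroup.centralizer
      (((P : Subgroup G) ⊓ Subgroup.centralizer ((P : Subgroup G) : Set G) : Subgroup G)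
        : Set G)))
    (hJ : HasNormalPComplement p (Subgroup.normalizer
      ((Cfsg.thompsonSubgroupAOf (P : Subgroup G) : Subgroup G) : Set G))) :
    HasNormalPComplement p G := by
  have hL : NpcLoc p (fun (G : Type u) [Group G] (R : Subgroup G) =>
      FunLoc p WJ G R ∧ CenLoc p G R) := npcLoc_and_cen (funLoc_npcLoc WJ (WJ_char p))
  refine gen_npc p hL
    (Good := fun (Z : Type u) [Group Z] => p ≠ 2 ∨ ¬ Cfsg.Involves (Equiv.Perm (Fin 4)) Z)
    ?_ ?_ ?_ (Nat.card G) G rfl hgood P ⟨?_, hZ⟩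
  · intro Z _ _ X h
    rcases h with h | h
    · exact Or.inl h
    · exact Or.inr (fun h2 => h (Helper27.involves_of_injective X.subtype
        (Subgroup.subtype_injective X) h2))
  · intro Z _ _ N _ h
    rcases h with h | h
    · exact Or.inl h
    · refine Or.inr (fun h2 => h ?_)
      exact Helper16.involves_of_section (⊤ : Subgroup Z)
        ((QuotientGroup.mk' N).comp (⊤ : Subgroup Z).subtype) (fun y => by
          obtain ⟨z, rfl⟩ := QuotientGroup.mk'_surjective N y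
          exact ⟨⟨z, Subgroup.mem_top z⟩, rfl⟩) h2
  · intro G _ _ hGood hG P hP H _ hH hD2 hCH Mb _ hMb j₀ hj₀ h5a habel
    obtain ⟨hPJ, hPZ⟩ := hP
    have hPJ' : HasNormalPComplement p
        (Subgroup.normalizer ((JE 0 (P : Subgroup G) : Subgroup G) : Set G)) := by
      have h := hPJ
      unfold FunLoc at h
      rw [inducedFunctor_WJ] at h
      exact h
    exact ab_endgame hGood hG P hPJ' hPZ H hH hD2 hCH Mb hMb j₀ hj₀ h5a habel
  · show HasNormalPComplement p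
      (Subgroup.normalizer ((Cfsg.inducedFunctor WJ (P : Subgroup G) : Subgroup G) : Set G))
    rw [inducedFunctor_WJ, ← thompsonAOf_eq]
    exact hJ

end Cfsg.Agent.Helper1
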